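import Cfsg.Agent.UClass.Twist
import Cfsg.Agent.ClassConj.PrimeOrderClasses

/-!
The conjugate dual of a polynomial and the classes of semisimple elements of prime order in the
general unitary groups.
-/

set_option autoImplicit false
set_option linter.all false

namespace Cfsg.Agent.UClass

open Polynomial Module Cfsg.Agent.Classical
open scoped Matrix

variable {F : Type*} [Field F] {n q : ℕ}

/-- The dimension of the kernel of a matrix. -/
noncomputable def nullity (M : Matrix (Fin n) (Fin n) F) : ℕ :=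
  finrank F (LinearMap.ker (Matrix.mulVecLin M))

theorem nullity_eq_ker_endo (M : Matrix (Fin n) (Fin n) F) :
    finrank F (LinearMap.ker (Matrix.toLinAlgEquiv' M)) = nullity M := rfl

theorem aeval_toLinAlgEquiv' (M : Matrix (Fin n) (Fin n) F) (f : F[X]) :
    aeval (Matrix.toLinAlgEquiv' M) f = Matrix.toLinAlgEquiv' (aeval M f) :=
  aeval_algHom_apply (Matrix.toLinAlgEquiv' : Matrix (Fin n) (Fin n) F ≃ₐ[F] _).toAlgHom M f

theorem nullity_unit_mul {U : Matrix (Fin n) (Fin n) F} (hU : IsUnit U) (M : Matrix (Fin n) (Fin n) F) :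
    nullity (U * M) = nullity M := by
  have h : LinearMap.ker (Matrix.mulVecLin (U * M)) = LinearMap.ker (Matrix.mulVecLin M) := by
    ext v
    simp only [LinearMap.mem_ker, Matrix.mulVecLin_apply, ← Matrix.mulVec_mulVec]
    refine ⟨fun h => ?_, fun h => by rw [h, Matrix.mulVec_zero]⟩
    exact Matrix.mulVec_injective_iff_isUnit.2 hU (by rw [h, Matrix.mulVec_zero])
  rw [nullity, h]; rfl

theorem nullity_transpose (M : Matrix (Fin n) (Fin n) F) : nullity M.transpose = nullity M := by
  have h1 := LinearMap.finrank_range_add_finrank_ker (Matrix.mulVecLin M)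
  have h2 := LinearMap.finrank_range_add_finrank_ker (Matrix.mulVecLin M.transpose)
  have h3 : M.transpose.rank = M.rank := Matrix.rank_transpose M
  simp only [Matrix.rank] at h3
  simp only [nullity]
  omega

theorem nullity_map [Finite F] (σ : F →+* F) (M : Matrix (Fin n) (Fin n) F) :
    nullity (M.map σ) = nullity M := by
  have hσ : Function.Bijective σ := Finite.injective_iff_bijective.1 σ.injective
  let e := RingEquiv.ofBijective σ hσ
  have hmv : ∀ v : Fin n → F, M.map σ *ᵥ (fun i => σ (v i)) = fun i => σ ((M *ᵥ v) i) := fun v =>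
    funext fun i => (RingHom.map_mulVec σ M v i).symm
  let E : LinearMap.ker (Matrix.mulVecLin M) ≃ LinearMap.ker (Matrix.mulVecLin (M.map σ)) :=
    { toFun := fun v => ⟨fun i => σ (v.1 i), by
        have h : M *ᵥ v.1 = 0 := LinearMap.mem_ker.1 v.2
        rw [LinearMap.mem_ker, Matrix.mulVecLin_apply, hmv, h]; funext i; exact map_zero σ⟩
      invFun := fun v => ⟨fun i => e.symm (v.1 i), by
        have h : M.map σ *ᵥ v.1 = 0 := LinearMap.mem_ker.1 v.2
        have h2 := hmv (fun i => e.symm (v.1 i))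
        rw [show (fun i => σ (e.symm (v.1 i))) = v.1 from funext fun i => e.apply_symm_apply _, h] at h2
        rw [LinearMap.mem_ker, Matrix.mulVecLin_apply]
        funext i
        exact σ.injective ((congrFun h2 i).symm.trans (map_zero σ).symm)⟩
      left_inv := fun v => Subtype.ext (funext fun i => e.symm_apply_apply _)
      right_inv := fun v => Subtype.ext (funext fun i => e.apply_symm_apply _) }
  have h := Nat.card_congr E
  rw [Module.natCard_eq_pow_finrank (K := F) (V := LinearMap.ker (Matrix.mulVecLin M)),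
    Module.natCard_eq_pow_finrank (K := F) (V := LinearMap.ker (Matrix.mulVecLin (M.map σ)))] at h
  exact (Nat.pow_right_injective (a := Nat.card F) Finite.one_lt_card h).symm

theorem nullity_smul {c : F} (hc : c ≠ 0) (M : Matrix (Fin n) (Fin n) F) : nullity (c • M) = nullity M := by
  rw [← nullity_unit_mul (U := c • (1 : Matrix (Fin n) (Fin n) F))
    (by rw [← Algebra.algebraMap_eq_smul_one]; exact (Ne.isUnit hc).map _) M, smul_mul_assoc, one_mul]

section

variable (hF : U.SqField F q)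

include hF

theorem nullity_cstar (M : Matrix (Fin n) (Fin n) F) : nullity (ClassConj.cstar hF M) = nullity M := by
  haveI := hF.1
  rw [ClassConj.cstar, nullity_transpose, nullity_map]

theorem cstar_pow (M : Matrix (Fin n) (Fin n) F) (k : ℕ) :
    ClassConj.cstar hF (M ^ k) = ClassConj.cstar hF M ^ k := by
  induction k with
  | zero => rw [pow_zero, pow_zero, cstar_one]
  | succ k ih => rw [pow_succ, ClassConj.cstar_mul, ih, pow_succ']

theorem cstar_smul (c : F) (M : Matrix (Fin n) (Fin n) F) :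
    ClassConj.cstar hF (c • M) = Forms.sqConj hF c • ClassConj.cstar hF M := by
  ext i j
  simp [ClassConj.cstar]

theorem aeval_cstar (M : Matrix (Fin n) (Fin n) F) (f : F[X]) :
    aeval (ClassConj.cstar hF M) f = ClassConj.cstar hF (aeval M (f.map (Forms.sqConj hF))) := by
  induction f using Polynomial.induction_on' with
  | add a b ha hb => rw [map_add, Polynomial.map_add, map_add, ha, hb, ClassConj.cstar_add]
  | monomial k c =>
    rw [Polynomial.map_monomial, aeval_monomial, aeval_monomial, ← Algebra.smul_def, ← Algebra.smul_def,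
      cstar_smul, Forms.sqConj_sqConj, cstar_pow]

/-- The inverse of the conjugate transpose. -/
noncomputable def dualGL : GL (Fin n) F →* GL (Fin n) F where
  toFun g := (cstarU hF g)⁻¹
  map_one' := inv_eq_one.2 (Units.ext (cstar_one hF))
  map_mul' g h := by
    rw [← mul_inv_rev]
    exact congrArg (fun x => x⁻¹) (Units.ext (ClassConj.cstar_mul hF _ _))

theorem dualGL_of_mem (g : GL (Fin n) F) (hg : g ∈ Cfsg.GU n F q) : dualGL hF g = g := by
  refine inv_eq_of_mul_eq_one_right (Units.ext ?_)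
  exact (ClassConj.mem_GU_iff_cstar hF g).1 hg

theorem exists_unitary_conj_of_dual (g : GL (Fin n) F) (h : IsConj g (dualGL hF g)) :
    ∃ B : ↥(Cfsg.GU n F q), IsConj g (B : GL (Fin n) F) := by
  obtain ⟨c, hc⟩ := isConj_iff.1 h
  refine exists_unitary_conj hF g c ?_
  have hc' : c * g = dualGL hF g * c := mul_inv_eq_iff_eq_mul.1 hc
  rw [mul_assoc, hc', ← mul_assoc]
  show cstarU hF g * (cstarU hF g)⁻¹ * c = c
  rw [mul_inv_cancel, one_mul]

theorem isConj_dual_of_mem {g : GL (Fin n) F} (B : ↥(Cfsg.GU n F q)) (h : IsConj g (B : GL (Fin n) F)) :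
    IsConj g (dualGL hF g) := by
  have h2 := (dualGL hF).map_isConj h
  rw [dualGL_of_mem hF _ B.2] at h2
  exact h.trans h2.symm

/-- The conjugate dual polynomial. -/
noncomputable def dualPoly (f : F[X]) : F[X] :=
  reverse (f.map (Forms.sqConj hF)) * C ((f.map (Forms.sqConj hF)).coeff 0)⁻¹

theorem dualPoly_facts {f : F[X]} {r : ℕ} (hr : 0 < r) (hm : f.Monic) (hf : f ∣ X ^ r - 1) :
    (dualPoly hF f).Monic ∧ (dualPoly hF f).natDegree = f.natDegree ∧
      dualPoly hF f ∣ X ^ r - 1 ∧ (f.map (Forms.sqConj hF)).coeff 0 ≠ 0 := by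
  set σ := Forms.sqConj hF
  set g := f.map σ
  have hg0 : g.coeff 0 ≠ 0 := by
    intro h0
    obtain ⟨h, hh⟩ := hf
    have := congrArg (fun p => (p.map σ).coeff 0) hh
    simp only [Polynomial.map_mul, mul_coeff_zero] at this
    rw [show (f.map σ).coeff 0 = 0 from h0, zero_mul] at this
    simp [hr.ne, hr.ne'] at this
  have hdeg : g.natDegree = f.natDegree := natDegree_map_eq_of_injective σ.injective f
  have hrev : (reverse g).natDegree = f.natDegree := by
    rw [reverse_natDegree, natTrailingDegree_eq_zero.2 (Or.inr hg0), Nat.sub_zero, hdeg]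
  refine ⟨?_, ?_, ?_, hg0⟩
  · refine monic_mul_C_of_leadingCoeff_mul_eq_one ?_
    rw [leadingCoeff, hrev, ← hdeg, coeff_reverse, revAt_le le_rfl, Nat.sub_self]
    exact mul_inv_cancel₀ hg0
  · rw [dualPoly, natDegree_mul_C (inv_ne_zero hg0)]
    exact hrev
  · rw [dualPoly]
    refine ((Units.mul_right_dvd (u := Units.map C.toMonoidHom (Units.mk0 _ (inv_ne_zero hg0)))).2 ?_)
    obtain ⟨h, hh⟩ := hf
    have h1 : reverse ((X : F[X]) ^ r - 1) = reverse g * reverse (h.map σ) := by
      rw [← reverse_mul_of_domain, ← Polynomial.map_mul, ← hh]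
      simp
    have h2 : reverse ((X : F[X]) ^ r - 1) = -(X ^ r - 1) := by
      have e : ((X : F[X]) ^ r - 1) = X ^ r + C (-1) := by rw [map_neg, map_one]; ring
      have hd : ((X : F[X]) ^ r + C (-1)).natDegree = r := natDegree_X_pow_add_C
      rw [e, reverse, hd, reflect_add, reflect_C]
      have : reflect r ((X : F[X]) ^ r) = 1 := by
        rw [← one_mul ((X : F[X]) ^ r), ← map_one C, reflect_C_mul_X_pow, revAt_le le_rfl, Nat.sub_self, pow_zero, mul_one]
      rw [this, map_neg, map_one]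
      ring
    exact (dvd_neg (α := F[X])).1 (h2 ▸ Dvd.intro _ h1.symm)

theorem nullity_aeval_dual {f : F[X]} {r : ℕ} (hr : 0 < r) (hm : f.Monic) (hf : f ∣ X ^ r - 1)
    {g : GL (Fin n) F} (hg : g ^ r = 1) :
    nullity (aeval ((dualGL hF g : GL (Fin n) F) : Matrix (Fin n) (Fin n) F) f) =
      nullity (aeval (g : Matrix (Fin n) (Fin n) F) (dualPoly hF f)) := by
  obtain ⟨-, -, -, hg0⟩ := dualPoly_facts hF hr hm hf
  set σ := Forms.sqConj hF
  set h := f.map σ
  set M := (g : Matrix (Fin n) (Fin n) F)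
  have hM : M ^ r = 1 := by rw [← Units.val_pow_eq_pow_val, hg, Units.val_one]
  have e1 : ((dualGL hF g : GL (Fin n) F) : Matrix (Fin n) (Fin n) F) = ClassConj.cstar hF (M ^ (r - 1)) := by
    have h1 : dualGL hF g = cstarU hF (g ^ (r - 1)) := by
      refine inv_eq_of_mul_eq_one_right (Units.ext ?_)
      show ClassConj.cstar hF M * ClassConj.cstar hF ((g ^ (r - 1) : GL (Fin n) F) : Matrix (Fin n) (Fin n) F) = 1
      rw [← ClassConj.cstar_mul, Units.val_pow_eq_pow_val, ← pow_succ, Nat.sub_add_cancel hr, hM, cstar_one]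
    rw [h1, ← Units.val_pow_eq_pow_val]; rfl
  rw [e1, aeval_cstar, nullity_cstar]
  have hdvd : (X ^ r - 1 : F[X]) ∣ reverse h * X ^ ((r - 1) * h.natDegree) - h.comp (X ^ (r - 1)) := by
    set P : F[X] := X ^ r - 1
    rw [← AdjoinRoot.mk_eq_zero, map_sub, map_mul, map_pow, sub_eq_zero, AdjoinRoot.mk_X]
    set u := AdjoinRoot.root P
    have hu : u ^ r = 1 := by
      have := AdjoinRoot.mk_self (f := P)
      rwa [map_sub, map_pow, map_one, AdjoinRoot.mk_X, sub_eq_zero] at this
    letI : Invertible (u ^ (r - 1)) := ⟨u, by rw [← pow_succ', Nat.sub_add_cancel hr, hu],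
      by rw [← pow_succ, Nat.sub_add_cancel hr, hu]⟩
    have := eval₂_reverse_mul_pow (AdjoinRoot.of P) (u ^ (r - 1)) h
    rw [show ⅟(u ^ (r - 1)) = u from rfl, ← pow_mul] at this
    have e2 : ∀ k : F[X], eval₂ (AdjoinRoot.of P) u k = AdjoinRoot.mk P k := fun k => by
      rw [← AdjoinRoot.algebraMap_eq, ← aeval_def, AdjoinRoot.aeval_eq]
    rw [e2] at this
    rw [this, ← e2, eval₂_comp, eval₂_X_pow]
  obtain ⟨k, hk⟩ := hdvd
  have h2 := congrArg (aeval M) hk
  have hP : aeval M (X ^ r - 1 : F[X]) = 0 := by rw [map_sub, map_pow, aeval_X, map_one, hM, sub_self]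
  simp only [map_mul (aeval M) (X ^ r - 1 : F[X]) k, hP, zero_mul, map_sub, sub_eq_zero, aeval_comp] at h2
  simp only [map_pow, aeval_X] at h2
  rw [← h2, mul_comm (reverse h), map_mul, map_pow, aeval_X, nullity_unit_mul (g.isUnit.pow _), dualPoly,
    mul_comm (reverse (f.map σ)), map_mul, aeval_C, ← Algebra.smul_def, nullity_smul (inv_ne_zero hg0)]

end

theorem dvd_finrank_ker {V : Type*} [AddCommGroup V] [Module F V] [FiniteDimensional F V]
    (y : Module.End F V) {f : F[X]} (hf : Irreducible f) :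
    f.natDegree ∣ finrank F (LinearMap.ker (aeval y f)) := by
  haveI : Fact (Irreducible f) := ⟨hf⟩
  let φ : AdjoinRoot f →+* Module.End F ↥(LinearMap.ker (aeval y f)) :=
    Ideal.Quotient.lift _ (aeval (ClassConj.kerRestrict y f)).toRingHom fun a ha => by
      obtain ⟨b, rfl⟩ := Ideal.mem_span_singleton.1 ha
      show aeval (ClassConj.kerRestrict y f) (f * b) = 0
      rw [map_mul, ClassConj.aeval_kerRestrict_self, zero_mul]
  letI := Module.compHom ↥(LinearMap.ker (aeval y f)) φ
  haveI : IsScalarTower F (AdjoinRoot f) ↥(LinearMap.ker (aeval y f)) :=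
    IsScalarTower.of_algebraMap_smul fun c v => by
      show aeval (ClassConj.kerRestrict y f) (C c) v = c • v
      rw [aeval_C, Module.algebraMap_end_apply]
  exact ⟨finrank (AdjoinRoot f) ↥(LinearMap.ker (aeval y f)), by
    rw [← Module.finrank_mul_finrank F (AdjoinRoot f) ↥(LinearMap.ker (aeval y f)),
      ClassConj.finrank_adjoinRoot hf.ne_zero]⟩

/-- Tuples invariant under an involution without fixed points. -/
theorem card_invariant_free {ι : Type*} [Fintype ι] [DecidableEq ι] (τ : ι → ι) (hτ : ∀ j, τ (τ j) = j)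
    (hfree : ∀ j, τ j ≠ j) (N : ℕ) :
    Nat.card {a : ι → ℕ // ∑ j, a j ≤ N ∧ ∀ j, a (τ j) = a j} =
      Nat.choose (N / 2 + Fintype.card ι / 2) (Fintype.card ι / 2) := by
  classical
  let o := Fintype.equivFin ι
  let T : Finset ι := Finset.univ.filter fun j => o j < o (τ j)
  have hmem : ∀ j, j ∈ T ↔ o j < o (τ j) := fun j => by simp [T]
  have hor : ∀ j, j ∉ T → τ j ∈ T := fun j hj => by
    rw [hmem, hτ]
    rw [hmem, not_lt] at hj
    exact lt_of_le_of_ne hj fun e => hfree j (o.injective e)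
  let E : T ⊕ T ≃ ι :=
    Equiv.ofBijective (Sum.elim (fun j => j.1) (fun j => τ j.1)) ⟨by
      have hno : ∀ a b : T, (a : ι) ≠ τ b := fun a b e => by
        have h1 := (hmem _).1 a.2
        have h2 := (hmem _).1 b.2
        rw [e, hτ] at h1
        exact lt_asymm h1 h2
      exact Function.Injective.sumElim Subtype.val_injective
        (fun a b e => Subtype.ext (by rw [← hτ a.1, ← hτ b.1]; exact congrArg τ e)) hno, fun j => by
      by_cases hj : j ∈ T
      · exact ⟨Sum.inl ⟨j, hj⟩, rfl⟩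
      · exact ⟨Sum.inr ⟨τ j, hor j hj⟩, hτ j⟩⟩
  have hcard : Fintype.card T = Fintype.card ι / 2 := by
    have h := Nat.card_congr E
    rw [Nat.card_sum] at h
    rw [← Nat.card_eq_fintype_card, ← Nat.card_eq_fintype_card (α := ι)]
    omega
  have hsum : ∀ a : ι → ℕ, (∀ j, a (τ j) = a j) → ∑ j, a j = 2 * ∑ j : T, a j := by
    intro a ha
    rw [← Equiv.sum_comp E a, Fintype.sum_sum_type, two_mul]
    refine congrArg₂ (· + ·) rfl (Finset.sum_congr rfl fun j _ => ha _)
  rw [← hcard, ← ClassConj.card_fun_sum_le (ι := T) (N / 2)]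
  have hT2 : ∀ j, j ∈ T → τ j ∉ T := fun j h h' => by
    have h1 := (hmem _).1 h
    have h2 := (hmem _).1 h'
    rw [hτ] at h2
    exact lt_asymm h1 h2
  refine Nat.card_congr
    { toFun := fun a => ⟨fun j => a.1 j.1, by
        have h1 := hsum a.1 a.2.2
        have h2 := a.2.1
        convert (show ∑ j : T, a.1 j ≤ N / 2 by omega)⟩
      invFun := fun c => ⟨fun j => if h : j ∈ T then c.1 ⟨j, h⟩ else c.1 ⟨τ j, hor j h⟩, ?_⟩
      left_inv := fun a => Subtype.ext (funext fun j => by
        by_cases h : j ∈ T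
        · simp [h]
        · simp [h, a.2.2 j])
      right_inv := fun c => Subtype.ext (funext fun j => by simp [j.2]) }
  have hinv : ∀ j, (fun j => if h : j ∈ T then c.1 ⟨j, h⟩ else c.1 ⟨τ j, hor j h⟩) (τ j) =
      (fun j => if h : j ∈ T then c.1 ⟨j, h⟩ else c.1 ⟨τ j, hor j h⟩) j := by
    intro j
    by_cases h : j ∈ T
    · have h' : τ j ∉ T := fun h' => by
        have h1 := (hmem _).1 h
        have h2 := (hmem _).1 h'
        rw [hτ] at h2
        exact lt_asymm h1 h2
      simp only [dif_pos h, dif_neg h', hτ]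
    · simp only [dif_neg h, dif_pos (hor j h)]
  refine ⟨?_, hinv⟩
  rw [hsum _ hinv]
  have h2 := c.2
  have : ∑ j : T, (fun j => if h : j ∈ T then c.1 ⟨j, h⟩ else c.1 ⟨τ j, hor j h⟩) j.1 = ∑ j : T, c.1 j :=
    Finset.sum_congr rfl fun j _ => by simp [j.2]
  rw [this]
  omega

/-- Classes of elements of prime order prime to the characteristic in general unitary groups. -/
theorem card_GU_primeOrder_classes [Fintype F] {p r i b t : ℕ} [Fact p.Prime] [CharP F p]
    (hK : Fintype.card F = q ^ 2) (hr : r.Prime) (hr2 : r ≠ 2) (hrp : r ≠ p) (hi : i = orderOf (q : ZMod r))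
    (hb : b = if Odd i then i else i / 2) (ht : t * b = r - 1) :
    Nat.card {C : ConjClasses ↥(Cfsg.GU n F q) // ∃ g : ↥(Cfsg.GU n F q), ConjClasses.mk g = C ∧ orderOf g = r}
      = if i % 4 = 2 then Nat.choose (n / b + t) t - 1 else Nat.choose (n / b / 2 + t / 2) (t / 2) - 1 := by
  classical
  haveI : Fact r.Prime := ⟨hr⟩
  have hF := U.sqField_of_fintype hK
  obtain ⟨e, -, hqe⟩ := FiniteField.card F p
  have hrF : (r : F) ≠ 0 := by
    rw [Ne, CharP.cast_eq_zero_iff F p]
    exact fun h => hrp ((Nat.prime_dvd_prime_iff_eq Fact.out hr).1 h).symm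
  have hQ : ((Fintype.card F : ℕ) : ZMod r) ≠ 0 := by
    rw [Ne, CharP.cast_eq_zero_iff (ZMod r) r, hqe]
    exact fun h => hrp ((Nat.prime_dvd_prime_iff_eq hr Fact.out).1 (hr.dvd_of_dvd_pow h))
  have hq0 : (q : ZMod r) ≠ 0 := fun h => hQ (by rw [hK, Nat.cast_pow, h, zero_pow two_ne_zero])
  obtain ⟨s, hX, hirr, hdeg, hcard, hcop, hprod⟩ := ClassConj.exists_factors (F := F) hr hrF hQ
  have hi0 : 0 < i := hi ▸ (IsUnit.isOfFinOrder (Ne.isUnit hq0)).orderOf_pos
  have hord : orderOf ((Fintype.card F : ℕ) : ZMod r) = b := by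
    rw [hK, Nat.cast_pow, orderOf_pow' _ two_ne_zero, ← hi, hb]
    split_ifs with hodd
    · rw [Nat.coprime_two_right.2 hodd |>.gcd_eq_one, Nat.div_one]
    · rw [Nat.gcd_eq_right (Nat.not_odd_iff_even.1 hodd).two_dvd]
  rw [hord] at hdeg hcard
  have hb0 : 0 < b := hord ▸ (IsUnit.isOfFinOrder (Ne.isUnit hQ)).orderOf_pos
  have hst : s.card = t := Nat.eq_of_mul_eq_mul_right hb0 (hcard.trans ht.symm)
  -- monic members
  have hdvd : ∀ f ∈ s, f ∣ X ^ r - 1 := fun f hf =>
    hprod ▸ Finset.dvd_prod_of_mem _ (Finset.mem_insert_of_mem hf)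
  have hlc : ∀ f ∈ s, f.leadingCoeff ≠ 0 := fun f hf => leadingCoeff_ne_zero.2 (hirr f hf).ne_zero
  have hunique : ∀ {L : Type _} [Field L] [Algebra F L] (x : L) (f g : s), aeval x (f : F[X]) = 0 →
      aeval x (g : F[X]) = 0 → f = g := by
    intro L _ _ x f g hf hg
    by_contra hne
    obtain ⟨a, c, hac⟩ := hcop f (Finset.mem_insert_of_mem f.2) g (Finset.mem_insert_of_mem g.2)
      (fun e => hne (Subtype.ext e))
    have := congrArg (aeval x) hac
    rw [map_add, map_mul, map_mul, hf, hg, mul_zero, mul_zero, add_zero, map_one] at this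
    exact zero_ne_one this
  let μ : F[X] → F[X] := fun f => f * C (f.leadingCoeff)⁻¹
  have hμu : ∀ f ∈ s, Associated f (μ f) := fun f hf =>
    ⟨Units.map C.toMonoidHom (Units.mk0 _ (inv_ne_zero (hlc f hf))), rfl⟩
  have hμm : ∀ f ∈ s, (μ f).Monic := fun f hf => monic_mul_leadingCoeff_inv (hirr f hf).ne_zero
  have hμd : ∀ f ∈ s, μ f ∣ X ^ r - 1 := fun f hf => (hμu f hf).dvd_iff_dvd_left.1 (hdvd f hf)
  -- the permutation
  have hτ0 : ∀ f : s, ∃ g : s, Associated (dualPoly hF (μ f)) (g : F[X]) := by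
    intro f
    obtain ⟨hm, hd, hdv, -⟩ := dualPoly_facts hF hr.pos (hμm f f.2) (hμd f f.2)
    have hd' : (dualPoly hF (μ f)).natDegree = b := by
      rw [hd, natDegree_mul_C (inv_ne_zero (hlc f f.2))]; exact hdeg f f.2
    have hnu : ¬ IsUnit (dualPoly hF (μ f)) := fun h => by
      rw [natDegree_eq_zero_of_isUnit h] at hd'; omega
    obtain ⟨π, hπ, hπd⟩ := WfDvdMonoid.exists_irreducible_factor hnu hm.ne_zero
    obtain ⟨g, hg, hgd⟩ := (hπ.prime.dvd_finsetProd_iff _).1 (hprod ▸ hπd.trans hdv)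
    have hgirr : Irreducible g := by
      rcases Finset.mem_insert.1 hg with rfl | hg
      · simpa using irreducible_X_sub_C (1 : F)
      · exact hirr g hg
    have hgd' : g ∣ dualPoly hF (μ f) := ((hπ.associated_of_dvd hgirr hgd).symm.dvd).trans hπd
    rcases Finset.mem_insert.1 hg with rfl | hg
    · exfalso
      have h1 : (dualPoly hF (μ f)).IsRoot 1 := by
        refine dvd_iff_isRoot.1 ?_
        simpa using hgd'
      have h2 : (μ f).IsRoot 1 := by
        rw [IsRoot, dualPoly, eval_mul, eval_C, mul_eq_zero] at h1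
        have h3 := h1.resolve_right (inv_ne_zero (dualPoly_facts hF hr.pos (hμm f f.2) (hμd f f.2)).2.2.2)
        letI : Invertible (1 : F) := invertibleOne
        have h4 := eval₂_reverse_mul_pow (RingHom.id F) (1 : F) ((μ f).map (Forms.sqConj hF))
        rw [invOf_one, eval₂_id, eval₂_id, h3, zero_mul] at h4
        have h5 : Polynomial.eval (Forms.sqConj hF 1) ((μ f).map (Forms.sqConj hF)) = 0 := by
          rw [map_one]; exact h4.symm
        rw [eval_map_apply, map_eq_zero] at h5
        exact h5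
      have h6 : (X - 1 : F[X]) ∣ (f : F[X]) :=
        ((by simpa using dvd_iff_isRoot.2 h2 : (X - 1 : F[X]) ∣ μ f)).trans (hμu f f.2).symm.dvd
      have h7 := (hcop _ (Finset.mem_insert_self _ _) f (Finset.mem_insert_of_mem f.2) (fun e => hX (e ▸ f.2))).isUnit_of_dvd' dvd_rfl h6
      exact hgirr.not_isUnit h7
    · refine ⟨⟨g, hg⟩, (associated_of_dvd_of_natDegree_le hgd' hm.ne_zero ?_).symm⟩
      rw [hd', hdeg g hg]
  choose τ hτ using hτ0
  -- kernel dimensions
  let D : GL (Fin n) F → s → ℕ := fun x f => nullity (aeval (x : Matrix (Fin n) (Fin n) F) (f : F[X]))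
  have hassoc : ∀ (x : GL (Fin n) F) {f g : F[X]}, Associated f g →
      nullity (aeval (x : Matrix (Fin n) (Fin n) F) f) = nullity (aeval (x : Matrix (Fin n) (Fin n) F) g) := by
    rintro x f g ⟨u, rfl⟩
    rw [mul_comm f, map_mul]
    exact (nullity_unit_mul ((u.isUnit).map _) _).symm
  have hDdual : ∀ (x : GL (Fin n) F) (f : s), x ^ r = 1 → D (dualGL hF x) f = D x (τ f) := fun x f hx => by
    show nullity _ = nullity _
    rw [hassoc _ (hμu f f.2), nullity_aeval_dual hF hr.pos (hμm f f.2) (hμd f f.2) hx, hassoc _ (hτ f)]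
  let y : GL (Fin n) F → Module.End F (Fin n → F) := fun g => Matrix.toLinAlgEquiv' (g : Matrix (Fin n) (Fin n) F)
  have hyD : ∀ x (f : s), finrank F (LinearMap.ker (aeval (y x) (f : F[X]))) = D x f := fun x f => by
    rw [aeval_toLinAlgEquiv', nullity_eq_ker_endo]
  set S := insert (X - 1 : F[X]) s
  have hirr' : ∀ f ∈ S, Irreducible f := fun f hf => by
    rcases Finset.mem_insert.1 hf with rfl | hf
    · simpa using irreducible_X_sub_C (1 : F)
    · exact hirr f hf
  have hy : ∀ g : GL (Fin n) F, g ^ r = 1 → aeval (y g) (∏ f ∈ S, f) = 0 := fun g hg => by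
    rw [hprod, map_sub, map_pow, aeval_X, map_one, sub_eq_zero, ← map_pow, ← Units.val_pow_eq_pow_val, hg,
      Units.val_one, map_one]
  have hdims : ∀ x : GL (Fin n) F, x ^ r = 1 →
      finrank F (LinearMap.ker (aeval (y x) (X - 1 : F[X]))) + ∑ j : s, D x j = n := by
    intro x hx
    have h := ClassConj.sum_finrank_ker S id hcop (y x) (hy x hx)
    rw [finrank_fin_fun, Finset.sum_insert hX, ← Finset.sum_coe_sort s] at h
    rw [← Finset.sum_congr rfl (fun j _ => hyD x j)]
    exact h.symm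
  have hconj : ∀ x x' : GL (Fin n) F, x ^ r = 1 → x' ^ r = 1 → (∀ j, D x j = D x' j) → IsConj x x' := by
    intro x x' hx hx' hd
    obtain ⟨E, hE⟩ := ClassConj.exists_intertwiner_of_kerDims S id hirr' hcop (y x) (y x') (hy x hx) (hy x' hx')
      fun f hf => by
        rcases Finset.mem_insert.1 hf with rfl | hf
        · have h1 := hdims x hx
          have h2 := hdims x' hx'
          rw [Finset.sum_congr rfl (fun j _ => hd j)] at h1
          simp only [id_eq]
          exact Nat.add_right_cancel (h1.trans h2.symm)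
        · simp only [id_eq]
          rw [hyD x ⟨f, hf⟩, hyD x' ⟨f, hf⟩]
          exact hd ⟨f, hf⟩
    exact ClassConj.isConj_GL_of_intertwiner x x' E hE
  have hDconj : ∀ {x x' : GL (Fin n) F}, IsConj x x' → ∀ j : s, D x j = D x' j := fun {x x'} h j => by
    rw [← hyD, ← hyD]; exact ClassConj.kerDims_of_isConj h _
  have e1 : (X - 1 : F[X]).natDegree = 1 := by simpa using natDegree_X_sub_C (1 : F)
  have hmodel : ∀ a : s → ℕ, ∑ j, a j ≤ n / b → ∃ g : GL (Fin n) F, g ^ r = 1 ∧ ∀ j, D g j = a j * b := by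
    intro a ha
    let c : F[X] → ℕ := fun f => if h : f ∈ s then a ⟨f, h⟩ else n - b * ∑ j, a j
    have hsum : ∑ f ∈ S, c f * f.natDegree = n := by
      have h1 : ∑ f ∈ s, c f * f.natDegree = (∑ j, a j) * b := by
        rw [Finset.sum_mul, ← Finset.sum_coe_sort s (fun f => c f * f.natDegree)]
        refine Finset.sum_congr rfl fun j _ => ?_
        simp only [c, dif_pos j.2, hdeg j j.2]
      rw [Finset.sum_insert hX, h1, e1, mul_one]
      simp only [c, dif_neg hX]
      have := (Nat.le_div_iff_mul_le hb0).1 ha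
      rw [mul_comm b]
      omega
    obtain ⟨z, hz, hzd⟩ := ClassConj.exists_end_kerDims S id (fun f hf => (hirr' f hf).ne_zero) hcop c hsum
    have hzr : (Matrix.toLinAlgEquiv'.symm z) ^ r = 1 := by
      rw [show (∏ f ∈ S, id f) = ∏ f ∈ S, f from rfl, hprod, map_sub, map_pow, aeval_X, map_one, sub_eq_zero] at hz
      rw [← map_pow, hz, map_one]
    obtain ⟨g, hg⟩ : IsUnit (Matrix.toLinAlgEquiv'.symm z) := (isUnit_pow_iff hr.ne_zero).1 (by rw [hzr]; exact isUnit_one)
    refine ⟨g, Units.ext (by rw [Units.val_pow_eq_pow_val, hg, hzr, Units.val_one]), fun j => ?_⟩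
    have := hzd j (Finset.mem_insert_of_mem j.2)
    simp only [c, id_eq, dif_pos j.2, hdeg j j.2] at this
    rw [← hyD]
    show finrank F (LinearMap.ker (aeval (Matrix.toLinAlgEquiv' (g : Matrix (Fin n) (Fin n) F)) (j : F[X]))) = _
    rw [hg, AlgEquiv.apply_symm_apply]
    exact this
  have hdual1 : ∀ {x : GL (Fin n) F}, x ^ r = 1 → dualGL hF x ^ r = 1 := fun {x} hx => by
    rw [← map_pow, hx, map_one]
  -- roots
  obtain ⟨p', k, hp', hchar, hqk⟩ := hF.exists_char
  obtain rfl : p' = p := CharP.eq F hchar ‹CharP F p›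
  have hstep : ∀ {L : Type _} [Field L] [Algebra F L] (x : L) (f : s), x ^ r = 1 → aeval x (f : F[X]) = 0 →
      aeval ((x ^ q) ^ (r - 1)) (τ f : F[X]) = 0 := by
    intro L _ _ x f hx hf
    haveI : CharP L p' := charP_of_injective_algebraMap (algebraMap F L).injective p'
    have hμf : aeval x (μ f) = 0 := by
      show aeval x ((f : F[X]) * _) = 0
      rw [map_mul, hf, zero_mul]
    set z := x ^ q
    have hz : z ^ r = 1 := by rw [← pow_mul, mul_comm, pow_mul, hx, one_pow]
    set g := (μ f).map (Forms.sqConj hF)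
    have hgz : eval₂ (algebraMap F L) z g = 0 := by
      rw [eval₂_map]
      have h1 : (iterateFrobenius L p' k).comp (algebraMap F L) = (algebraMap F L).comp (Forms.sqConj hF) := by
        refine RingHom.ext fun c => ?_
        show (algebraMap F L c) ^ (p' ^ k) = algebraMap F L (c ^ q)
        rw [← hqk, map_pow]
      rw [← h1, show z = iterateFrobenius L p' k x by rw [iterateFrobenius_def, ← hqk],
        ← hom_eval₂, ← aeval_def, hμf, map_zero]
    letI : Invertible z := ⟨z ^ (r - 1), by rw [← pow_succ, Nat.sub_add_cancel hr.pos, hz],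
      by rw [← pow_succ', Nat.sub_add_cancel hr.pos, hz]⟩
    have h2 := eval₂_reverse_mul_pow (algebraMap F L) z g
    rw [hgz, show ⅟z = z ^ (r - 1) from rfl, mul_eq_zero] at h2
    have hz0 : z ≠ 0 := fun e => by rw [e, zero_pow hr.ne_zero] at hz; exact zero_ne_one hz
    have h3 : aeval (z ^ (r - 1)) (dualPoly hF (μ f)) = 0 := by
      rw [dualPoly, map_mul, aeval_def, h2.resolve_right (pow_ne_zero _ hz0), zero_mul]
    obtain ⟨u, hu⟩ := hτ f
    rw [← hu, map_mul, h3, zero_mul]
  have hrootOf : ∀ f : s, ∀ [Fact (Irreducible (f : F[X]))],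
      (AdjoinRoot.root (f : F[X])) ^ r = 1 ∧ orderOf (AdjoinRoot.root (f : F[X])) = r := by
    intro f _
    have hζ : (AdjoinRoot.root (f : F[X])) ^ r = 1 := by
      have := AdjoinRoot.mk_eq_zero.2 (hdvd f f.2)
      rwa [map_sub, map_pow, map_one, AdjoinRoot.mk_X, sub_eq_zero] at this
    refine ⟨hζ, orderOf_eq_prime hζ fun h1 => ?_⟩
    have h2 : (f : F[X]) ∣ X - 1 := AdjoinRoot.mk_eq_zero.1 (by
      rw [map_sub, map_one, AdjoinRoot.mk_X]; exact sub_eq_zero.2 h1)
    exact (hirr f f.2).not_isUnit ((hcop _ (Finset.mem_insert_self _ _) f (Finset.mem_insert_of_mem f.2)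
      (fun e => hX (e ▸ f.2))).isUnit_of_dvd' h2 dvd_rfl)
  have hrootEq : ∀ f : s, ∀ [Fact (Irreducible (f : F[X]))] (m m' : ℕ), (m : ZMod r) = (m' : ZMod r) →
      (AdjoinRoot.root (f : F[X])) ^ m = (AdjoinRoot.root (f : F[X])) ^ m' := by
    intro f _ m m' h
    rw [← pow_mod_orderOf, (hrootOf f).2, (ZMod.natCast_eq_natCast_iff' _ _ _).1 h]
    conv_rhs => rw [← pow_mod_orderOf, (hrootOf f).2]
  have hroots : ∀ f : s, ∀ [Fact (Irreducible (f : F[X]))] (j : ℕ),
      aeval ((AdjoinRoot.root (f : F[X])) ^ (Fintype.card F ^ j)) (f : F[X]) = 0 := by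
    intro f _ j
    haveI : CharP (AdjoinRoot (f : F[X])) p' :=
      charP_of_injective_algebraMap (algebraMap F (AdjoinRoot (f : F[X]))).injective p'
    induction j with
    | zero => rw [pow_zero, pow_one, AdjoinRoot.aeval_eq, AdjoinRoot.mk_self]
    | succ j ih =>
      have h1 : (iterateFrobenius (AdjoinRoot (f : F[X])) p' (k * 2)).comp (algebraMap F (AdjoinRoot (f : F[X]))) =
          algebraMap F (AdjoinRoot (f : F[X])) := by
        refine RingHom.ext fun c => ?_
        show (algebraMap F (AdjoinRoot (f : F[X])) c) ^ (p' ^ (k * 2)) = algebraMap F _ c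
        rw [pow_mul p', ← hqk, ← map_pow, ← hK, FiniteField.pow_card]
      rw [aeval_def, ← h1, show (AdjoinRoot.root (f : F[X])) ^ (Fintype.card F ^ (j + 1)) =
        iterateFrobenius _ p' (k * 2) ((AdjoinRoot.root (f : F[X])) ^ (Fintype.card F ^ j)) by
          rw [iterateFrobenius_def, pow_mul p', ← hqk, ← hK, ← pow_mul, ← pow_succ],
        ← hom_eval₂, ← aeval_def, ih, map_zero]
  have hcastη : (((q * (r - 1) : ℕ)) : ZMod r) = -(q : ZMod r) := by
    rw [Nat.cast_mul, Nat.cast_sub hr.one_le, ZMod.natCast_self, Nat.cast_one, zero_sub, mul_neg, mul_one]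
  have hττ : ∀ f : s, τ (τ f) = f := by
    intro f
    haveI : Fact (Irreducible (f : F[X])) := ⟨hirr f f.2⟩
    obtain ⟨hζ, -⟩ := hrootOf f
    set ζ := AdjoinRoot.root (f : F[X])
    have h1 := hstep ζ f hζ (by rw [AdjoinRoot.aeval_eq, AdjoinRoot.mk_self])
    have h2 := hstep _ (τ f) (by
      rw [← pow_mul ζ q, ← pow_mul, mul_comm (q * (r - 1)) r, pow_mul, hζ, one_pow]) h1
    refine hunique ((ζ ^ (Fintype.card F)) : AdjoinRoot (f : F[X])) _ _ ?_ (by simpa using hroots f 1)
    have e : ζ ^ (Fintype.card F) = (((ζ ^ q) ^ (r - 1)) ^ q) ^ (r - 1) := by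
      rw [← pow_mul ζ q, ← pow_mul ζ (q * (r - 1)), ← pow_mul ζ (q * (r - 1) * q)]
      refine hrootEq f _ _ ?_
      rw [show q * (r - 1) * q * (r - 1) = (q * (r - 1)) * (q * (r - 1)) by ring, Nat.cast_mul, hcastη, hK,
        neg_mul_neg, Nat.cast_pow, sq]
    rw [e]
    exact h2
  have hfix : ∀ f : s, τ f = f ↔ i % 4 = 2 := by
    intro f
    haveI : Fact (Irreducible (f : F[X])) := ⟨hirr f f.2⟩
    obtain ⟨hζ, hζo⟩ := hrootOf f
    set ζ := AdjoinRoot.root (f : F[X])
    have h1 := hstep ζ f hζ (by rw [AdjoinRoot.aeval_eq, AdjoinRoot.mk_self])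
    rw [← pow_mul] at h1
    constructor
    · intro h
      rw [h] at h1
      have hmod : ∀ j j', j < b → j' < b → ζ ^ (Fintype.card F ^ j) = ζ ^ (Fintype.card F ^ j') → j = j' := by
        intro j j' hj hj' e
        rw [(isOfFinOrder_iff_pow_eq_one.2 ⟨r, hr.pos, hζ⟩).pow_eq_pow_iff_modEq, hζo, ← ZMod.natCast_eq_natCast_iff, Nat.cast_pow, Nat.cast_pow] at e
        exact pow_injOn_Iio_orderOf (x := ((Fintype.card F : ℕ) : ZMod r)) (Set.mem_Iio.2 (hord ▸ hj))
          (Set.mem_Iio.2 (hord ▸ hj')) e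
      have hsub : ((Finset.range b).image fun j => ζ ^ (Fintype.card F ^ j)) ⊆
          ((f : F[X]).aroots (AdjoinRoot (f : F[X]))).toFinset := by
        intro x hx
        obtain ⟨j, -, rfl⟩ := Finset.mem_image.1 hx
        rw [Multiset.mem_toFinset, mem_aroots]
        exact ⟨(hirr f f.2).ne_zero, hroots f j⟩
      have hle : ((f : F[X]).aroots (AdjoinRoot (f : F[X]))).toFinset.card ≤ b :=
        (Multiset.toFinset_card_le _).trans (((card_roots' _).trans natDegree_map_le).trans_eq (hdeg f f.2))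
      have heq := Finset.eq_of_subset_of_card_le hsub (hle.trans_eq (by
        rw [Finset.card_image_of_injOn (fun j hj j' hj' e => hmod j j' (Finset.mem_range.1 hj) (Finset.mem_range.1 hj') e),
          Finset.card_range]))
      have hmem : ζ ^ (q * (r - 1)) ∈ ((f : F[X]).aroots (AdjoinRoot (f : F[X]))).toFinset := by
        rw [Multiset.mem_toFinset, mem_aroots]; exact ⟨(hirr f f.2).ne_zero, h1⟩
      rw [← heq, Finset.mem_image] at hmem
      obtain ⟨j, -, hj⟩ := hmem
      rw [(isOfFinOrder_iff_pow_eq_one.2 ⟨r, hr.pos, hζ⟩).pow_eq_pow_iff_modEq, hζo, ← ZMod.natCast_eq_natCast_iff, hcastη, hK, Nat.cast_pow, Nat.cast_pow,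
        ← pow_mul] at hj
      have hexp : (q : ZMod r) ^ (2 * (j + i) - 1) = -1 := by
        have h3 : (q : ZMod r) ^ (2 * (j + i) - 1) * q = -1 * q := by
          rw [← pow_succ, Nat.sub_add_cancel (by omega), mul_add, pow_add, hj, mul_comm 2 i, pow_mul, hi,
            pow_orderOf_eq_one, one_pow, mul_one, neg_mul, one_mul]
        exact mul_right_cancel₀ hq0 h3
      set E := 2 * (j + i) - 1
      have h4 : i ∣ 2 * E := hi ▸ orderOf_dvd_of_pow_eq_one (by rw [mul_comm, pow_mul, hexp, neg_one_sq])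
      have h5 : ¬ i ∣ E := fun h5 => by
        rw [hi, orderOf_dvd_iff_pow_eq_one, hexp] at h5
        have h6 : ((2 : ℕ) : ZMod r) = 0 := by push_cast; linear_combination -h5
        rw [CharP.cast_eq_zero_iff (ZMod r) r] at h6
        exact hr2 ((Nat.prime_dvd_prime_iff_eq hr Nat.prime_two).1 h6)
      rcases Nat.even_or_odd i with hie | hio
      · obtain ⟨c, rfl⟩ := hie
        rw [← two_mul] at h4
        have hcE : c ∣ E := Nat.dvd_of_mul_dvd_mul_left two_pos h4
        have : Odd c := (Nat.odd_iff.2 (by omega : E % 2 = 1)).of_dvd_nat hcE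
        obtain ⟨d, rfl⟩ := this
        omega
      · exact absurd ((Nat.coprime_two_right.2 hio).dvd_of_dvd_mul_left h4) h5
    · intro hi4
      have hneg : (q : ZMod r) ^ (i / 2) = -1 := by
        have h2 : ((q : ZMod r) ^ (i / 2)) ^ 2 = 1 := by
          rw [← pow_mul, show i / 2 * 2 = i by omega, hi, pow_orderOf_eq_one]
        refine ((sq_eq_one_iff.1 h2).resolve_left fun h3 => ?_)
        have hdd : i ∣ i / 2 := by
          have := orderOf_dvd_of_pow_eq_one h3
          rwa [← hi] at this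
        have := Nat.le_of_dvd (by omega) hdd
        omega
      refine hunique _ _ _ h1 ?_
      rw [hrootEq f (q * (r - 1)) (Fintype.card F ^ ((i / 2 + 1) / 2)) (by
        rw [hcastη, hK, Nat.cast_pow, Nat.cast_pow, ← pow_mul, show 2 * ((i / 2 + 1) / 2) = i / 2 + 1 by omega,
          pow_succ, hneg, neg_one_mul])]
      exact hroots f _
  -- the classes
  let T := {a : s → ℕ // ∑ j, a j ≤ n / b ∧ ∀ j, a (τ j) = a j}
  let zero : T := ⟨0, by simp, fun j => rfl⟩
  have hreal : ∀ a : T, ∃ B : ↥(Cfsg.GU n F q), (B : GL (Fin n) F) ^ r = 1 ∧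
      ∀ j, D (B : GL (Fin n) F) j = a.1 j * b := by
    intro a
    obtain ⟨g, hg, hgd⟩ := hmodel a.1 a.2.1
    obtain ⟨B, hB⟩ := exists_unitary_conj_of_dual hF g (hconj _ _ hg (hdual1 hg) fun j => by
      rw [hDdual g j hg, hgd, hgd, a.2.2])
    refine ⟨B, ?_, fun j => by rw [← hDconj hB, hgd]⟩
    obtain ⟨c, hc⟩ := isConj_iff.1 hB
    rw [← hc, conj_pow, hg, mul_one, mul_inv_cancel]
  choose B hBr hBd using hreal
  have hD1 : ∀ j, D (1 : GL (Fin n) F) j = 0 := by
    intro j
    rw [← hyD]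
    have h2 : LinearMap.ker (aeval (y (1 : GL (Fin n) F)) (X - 1 : F[X])) = ⊤ := by
      simp [y, Units.val_one]
    have h3 := disjoint_ker_aeval_of_isCoprime (y (1 : GL (Fin n) F))
      (hcop (X - 1) (Finset.mem_insert_self _ _) (j : F[X]) (Finset.mem_insert_of_mem j.2) (fun e => hX (e ▸ j.2)))
    rw [h2] at h3
    rw [disjoint_top.1 h3.symm, finrank_bot]
  have hone : ∀ a : T, B a = 1 ↔ a = zero := by
    intro a
    constructor
    · intro h
      refine Subtype.ext (funext fun j => ?_)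
      have h1 := hBd a j
      rw [h] at h1
      exact (mul_eq_zero.1 (h1.symm.trans (hD1 j))).resolve_right hb0.ne'
    · intro h
      refine Subtype.ext (isConj_one_left.1 (hconj _ _ (hBr a) (one_pow r) fun j => ?_))
      rw [hBd, hD1, h, show zero.1 j = 0 from rfl, zero_mul]
  let f : {a : T // a ≠ zero} → {C : ConjClasses ↥(Cfsg.GU n F q) //
      ∃ g : ↥(Cfsg.GU n F q), ConjClasses.mk g = C ∧ orderOf g = r} :=
    fun a => ⟨ConjClasses.mk (B a.1), B a.1, rfl, orderOf_eq_prime (Subtype.ext (by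
      rw [SubgroupClass.coe_pow, hBr]; rfl)) fun h => a.2 ((hone a.1).1 h)⟩
  have hf : Function.Bijective f := by
    constructor
    · intro a c h
      refine Subtype.ext (Subtype.ext (funext fun j => ?_))
      have h1 := hDconj ((Cfsg.GU n F q).subtype.map_isConj
        (ConjClasses.mk_eq_mk_iff_isConj.1 (congrArg Subtype.val h))) j
      exact Nat.eq_of_mul_eq_mul_right hb0 ((hBd a.1 j).symm.trans (h1.trans (hBd c.1 j)))
    · rintro ⟨C, x, rfl, hx⟩
      have hxr : (x : GL (Fin n) F) ^ r = 1 := by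
        rw [← SubgroupClass.coe_pow, ← hx, pow_orderOf_eq_one]; rfl
      have hdv : ∀ j : s, ∃ a, D (x : GL (Fin n) F) j = a * b := fun j => by
        obtain ⟨a, ha⟩ := dvd_finrank_ker (y (x : GL (Fin n) F)) (hirr j j.2)
        exact ⟨a, by rw [← hyD, ha, hdeg j j.2, mul_comm]⟩
      choose a ha using hdv
      have hle : ∑ j, a j ≤ n / b := by
        rw [Nat.le_div_iff_mul_le hb0, Finset.sum_mul]
        have h1 := hdims _ hxr
        rw [Finset.sum_congr rfl (fun j _ => ha j)] at h1
        omega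
      have hinv : ∀ j, a (τ j) = a j := fun j => Nat.eq_of_mul_eq_mul_right hb0 (by
        rw [← ha, ← ha, ← hDdual _ j hxr, dualGL_of_mem hF _ x.2])
      have hc : IsConj (B ⟨a, hle, hinv⟩) x := ClassConj.GU_isConj_of_isConj hF _ _
        (hconj _ _ (hBr _) hxr fun j => (hBd _ j).trans (ha j).symm)
      refine ⟨⟨⟨a, hle, hinv⟩, fun e => ?_⟩, Subtype.ext (ConjClasses.mk_eq_mk_iff_isConj.2 hc)⟩
      rw [(hone _).2 e] at hc
      rw [isConj_one_right.1 hc, orderOf_one] at hx
      exact hr.one_lt.ne hx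
  rw [← Nat.card_congr (Equiv.ofBijective f hf)]
  haveI : Finite T := by
    refine Finite.of_injective (fun a : T => fun j : s => (⟨a.1 j, Nat.lt_succ_of_le
      (le_trans (Finset.single_le_sum (fun k _ => Nat.zero_le _) (Finset.mem_univ j)) a.2.1)⟩ : Fin (n / b + 1))) ?_
    intro a c h
    exact Subtype.ext (funext fun j => congrArg Fin.val (congrFun h j))
  haveI : Fintype T := Fintype.ofFinite T
  rw [Nat.card_eq_fintype_card, Fintype.card_subtype_compl, Fintype.card_subtype_eq, ← Nat.card_eq_fintype_card]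
  split_ifs with h4
  · have : Nat.card T = Nat.card {a : s → ℕ // ∑ j, a j ≤ n / b} :=
      Nat.card_congr (Equiv.subtypeEquivRight fun a =>
        ⟨fun h => h.1, fun h => ⟨h, fun j => by rw [(hfix j).2 h4]⟩⟩)
    rw [this, ClassConj.card_fun_sum_le, Fintype.card_coe, hst]
  · rw [card_invariant_free τ hττ (fun j h => h4 ((hfix j).1 h)), Fintype.card_coe, hst]

end Cfsg.Agent.UClass
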