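import Cfsg.Agent.ClassConj.Unitary

/-!
Hilbert's theorem 90 in finite commutative rings with involution, and the criterion for a matrix
to be similar to a unitary one.
-/

set_option autoImplicit false
set_option linter.all false

namespace Cfsg.Agent.UClass

open Matrix Cfsg.Agent.Classical

/-- Hilbert's theorem 90: an element of norm one is `g / σ g` for a unit `g`. -/
theorem exists_unit_twist {R : Type*} [CommRing R] [Finite R] (σ : R →+* R) (hσ2 : ∀ a, σ (σ a) = a)
    {θ : R} (hθ : IsUnit (θ - σ θ)) {u : R} (hu : u * σ u = 1) : ∃ g, IsUnit g ∧ σ g * u = g := by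
  classical
  haveI : Finite (MaximalSpectrum R) :=
    Finite.of_injective (fun M => (M.asIdeal : Set R)) fun a b e => MaximalSpectrum.ext (SetLike.coe_injective e)
  haveI : Fintype (MaximalSpectrum R) := Fintype.ofFinite _
  have hσs : Function.Surjective σ := fun a => ⟨σ a, hσ2 a⟩
  let c : MaximalSpectrum R → MaximalSpectrum R := fun M =>
    ⟨M.asIdeal.comap σ, Ideal.comap_isMaximal_of_surjective σ hσs (H := M.isMaximal)⟩
  have hcc : ∀ M, c (c M) = M := fun M => MaximalSpectrum.ext (SetLike.ext fun a => by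
    show σ (σ a) ∈ M.asIdeal ↔ a ∈ M.asIdeal
    rw [hσ2])
  have huu : IsUnit u := IsUnit.of_mul_eq_one _ hu
  have hfix : ∀ M : MaximalSpectrum R, ∃ a, a + u * σ a ∉ M.asIdeal := by
    intro M
    by_contra h
    push Not at h
    have h1 := h 1
    rw [map_one, mul_one] at h1
    have h2 : θ - σ θ ∈ M.asIdeal := by
      have := sub_mem (h θ) (Ideal.mul_mem_left _ (σ θ) h1)
      rwa [show θ + u * σ θ - σ θ * (1 + u) = θ - σ θ by ring] at this
    exact M.isMaximal.ne_top (Ideal.eq_top_of_isUnit_mem _ h2 hθ)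
  choose z0 hz0 using hfix
  let o := Fintype.equivFin (MaximalSpectrum R)
  let z : MaximalSpectrum R → R := fun M =>
    if c M = M then z0 M else if o M < o (c M) then 1 else 0
  obtain ⟨x, hx⟩ := Ideal.pi_mkQ_surjective (I := fun M : MaximalSpectrum R => M.asIdeal)
    (fun M N hMN => Ideal.isCoprime_of_isMaximal fun e => hMN (MaximalSpectrum.ext e))
    (fun M => Submodule.Quotient.mk (z M))
  have hx' : ∀ M, x - z M ∈ M.asIdeal := fun M => (Submodule.Quotient.eq _).1 (congrFun hx M)
  refine ⟨x + u * σ x, ?_, ?_⟩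
  · by_contra hn
    obtain ⟨M', hM', hxM'⟩ := exists_max_ideal_of_mem_nonunits hn
    let M : MaximalSpectrum R := ⟨M', hM'⟩
    have hxM : x + u * σ x ∈ M.asIdeal := hxM'
    have h1 : σ x - σ (z (c M)) ∈ M.asIdeal := by
      have := hx' (c M)
      change σ (x - z (c M)) ∈ M.asIdeal at this
      rwa [map_sub] at this
    have h2 : z M + u * σ (z (c M)) ∈ M.asIdeal := by
      have := sub_mem hxM (add_mem (hx' M) (Ideal.mul_mem_left _ u h1))
      rwa [show x + u * σ x - (x - z M + u * (σ x - σ (z (c M)))) = z M + u * σ (z (c M)) by ring] at this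
    by_cases hM : c M = M
    · rw [hM] at h2
      simp only [z, if_pos hM] at h2
      exact hz0 M h2
    · have hM'' : ¬ c (c M) = c M := by rw [hcc]; exact Ne.symm hM
      simp only [z, if_neg hM, if_neg hM'', hcc] at h2
      rcases lt_or_gt_of_ne (fun e => hM (o.injective e).symm : o M ≠ o (c M)) with hlt | hlt
      · simp only [if_pos hlt, if_neg (lt_asymm hlt), map_zero, mul_zero, add_zero] at h2
        exact M.isMaximal.ne_top ((Ideal.eq_top_iff_one _).2 h2)
      · simp only [if_pos hlt, if_neg (lt_asymm hlt), map_one, mul_one, zero_add] at h2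
        exact M.isMaximal.ne_top (Ideal.eq_top_of_isUnit_mem _ h2 huu)
  · have hu' : σ u * u = 1 := by rw [mul_comm]; exact hu
    rw [map_add, map_mul, hσ2]
    linear_combination x * hu'

section

variable {F : Type*} [Field F] {n q : ℕ} (hF : U.SqField F q)

include hF

theorem cstar_one : ClassConj.cstar hF (1 : Matrix (Fin n) (Fin n) F) = 1 := by
  simpa using ClassConj.cstar_smul_one hF (n := n) (1 : F)

/-- The conjugate transpose of an invertible matrix. -/
noncomputable def cstarU (g : GL (Fin n) F) : GL (Fin n) F :=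
  ⟨ClassConj.cstar hF (g : Matrix (Fin n) (Fin n) F), ClassConj.cstar hF ((g⁻¹ : GL (Fin n) F) : Matrix (Fin n) (Fin n) F),
    by rw [← ClassConj.cstar_mul, Units.inv_mul, cstar_one],
    by rw [← ClassConj.cstar_mul, Units.mul_inv, cstar_one]⟩

/-- A non-degenerate sesquilinear form preserved by `A` yields a Hermitian one. -/
theorem exists_hermitian_invariant (A c : GL (Fin n) F)
    (hA : cstarU hF A * c * A = c) :
    ∃ H : GL (Fin n) F, cstarU hF H = H ∧ cstarU hF A * H * A = H := by
  haveI := hF.1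
  have hst : ∀ g : GL (Fin n) F, (cstarU hF g : Matrix (Fin n) (Fin n) F) = ClassConj.cstar hF (g : Matrix (Fin n) (Fin n) F) := fun g => rfl
  have hstm : ∀ g k : GL (Fin n) F, cstarU hF (g * k) = cstarU hF k * cstarU hF g := fun g k =>
    Units.ext (by simp only [hst, Units.val_mul, ClassConj.cstar_mul])
  have hst2 : ∀ g : GL (Fin n) F, cstarU hF (cstarU hF g) = g := fun g =>
    Units.ext (ClassConj.cstar_cstar hF _)
  set u : GL (Fin n) F := c⁻¹ * cstarU hF c with hu
  have huA : A * u = u * A := by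
    have h2 : cstarU hF A * (cstarU hF c * A) = cstarU hF c := by
      have := congrArg (cstarU hF) hA
      rwa [hstm, hstm, hst2] at this
    have e : c = cstarU hF A * (c * A) := by rw [← mul_assoc, hA]
    calc A * u = A * c⁻¹ * cstarU hF c := by rw [hu, mul_assoc]
      _ = A * (cstarU hF A * (c * A))⁻¹ * (cstarU hF A * (cstarU hF c * A)) := by rw [← e, h2]
      _ = c⁻¹ * cstarU hF c * A := by group
      _ = u * A := by rw [hu]
  -- the anti-automorphism
  let s : Matrix (Fin n) (Fin n) F → Matrix (Fin n) (Fin n) F := fun x =>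
    ((c⁻¹ : GL (Fin n) F) : Matrix (Fin n) (Fin n) F) * ClassConj.cstar hF x * (c : Matrix (Fin n) (Fin n) F)
  have hadd : ∀ a b, s (a + b) = s a + s b := fun a b => by
    simp only [s, ClassConj.cstar_add, mul_add, add_mul]
  have hmul : ∀ a b, s (a * b) = s b * s a := fun a b => by
    simp only [s, ClassConj.cstar_mul, mul_assoc, Units.mul_inv_cancel_left]
  have h0 : s 0 = 0 := by simpa using hadd 0 0
  have hneg : ∀ a, s (-a) = -s a := fun a =>
    eq_neg_of_add_eq_zero_left (by rw [← hadd, neg_add_cancel, h0])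
  have h1 : s 1 = 1 := by simp only [s, cstar_one, mul_one, Units.inv_mul]
  have hscal : ∀ x : F, s (x • 1) = Forms.sqConj hF x • 1 := fun x => by
    simp only [s, ClassConj.cstar_smul_one, mul_smul_comm, smul_mul_assoc, mul_one, Units.inv_mul]
  obtain ⟨c0, hc0⟩ : ∃ x : F, Forms.sqConj hF x ≠ x := by
    by_contra hc
    push Not at hc
    exact Forms.sqConj_ne_id hF (RingHom.ext hc)
  have hsu : s (u : Matrix (Fin n) (Fin n) F) = ((u⁻¹ : GL (Fin n) F) : Matrix (Fin n) (Fin n) F) := by
    show ((c⁻¹ * cstarU hF u * c : GL (Fin n) F) : Matrix (Fin n) (Fin n) F) = _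
    congr 1
    have hinv : cstarU hF c⁻¹ = (cstarU hF c)⁻¹ := by
      refine eq_inv_of_mul_eq_one_left ?_
      rw [← hstm, mul_inv_cancel]
      exact Units.ext (cstar_one hF)
    rw [hu, hstm, hst2, hinv]
    group
  have hsu' : s ((u⁻¹ : GL (Fin n) F) : Matrix (Fin n) (Fin n) F) = (u : Matrix (Fin n) (Fin n) F) := by
    have := hmul (u : Matrix (Fin n) (Fin n) F) ((u⁻¹ : GL (Fin n) F) : Matrix (Fin n) (Fin n) F)
    rw [Units.mul_inv, h1, hsu] at this
    calc s _ = s _ * (((u⁻¹ : GL (Fin n) F) : Matrix (Fin n) (Fin n) F) * (u : Matrix (Fin n) (Fin n) F)) := by rw [Units.inv_mul, mul_one]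
      _ = _ := by rw [← mul_assoc, ← this, one_mul]
  set θ : Matrix (Fin n) (Fin n) F := c0 • 1 with hθdef
  set S : Set (Matrix (Fin n) (Fin n) F) :=
    {(u : Matrix (Fin n) (Fin n) F), ((u⁻¹ : GL (Fin n) F) : Matrix (Fin n) (Fin n) F), θ, Forms.sqConj hF c0 • 1} with hS
  have hsc : ∀ (x : F) (M : Matrix (Fin n) (Fin n) F), x • 1 * M = M * x • 1 := fun x M => by simp
  have hcomm : ∀ a ∈ S, ∀ b ∈ S, a * b = b * a := by
    rintro a (rfl | rfl | rfl | rfl) b (rfl | rfl | rfl | rfl)
    all_goals first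
      | rfl | exact hsc _ _ | exact (hsc _ _).symm
      | rw [Units.mul_inv, Units.inv_mul]
  letI : CommRing (Subring.closure S) := Subring.closureCommRingOfComm hcomm
  have hmem : ∀ a ∈ Subring.closure S, s a ∈ Subring.closure S := by
    intro a ha
    induction ha using Subring.closure_induction with
    | mem x hx =>
      rcases hx with rfl | rfl | rfl | rfl
      · rw [hsu]; exact Subring.subset_closure (Or.inr (Or.inl rfl))
      · rw [hsu']; exact Subring.subset_closure (Or.inl rfl)
      · rw [hθdef, hscal]; exact Subring.subset_closure (Or.inr (Or.inr (Or.inr rfl)))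
      · rw [hscal, Forms.sqConj_sqConj]; exact Subring.subset_closure (Or.inr (Or.inr (Or.inl rfl)))
    | zero => rw [h0]; exact zero_mem _
    | one => rw [h1]; exact one_mem _
    | add x y _ _ hx hy => rw [hadd]; exact add_mem hx hy
    | neg x _ hx => rw [hneg]; exact neg_mem hx
    | mul x y _ _ hx hy => rw [hmul]; exact mul_mem hy hx
  have hs2 : ∀ a ∈ Subring.closure S, s (s a) = a := by
    intro a ha
    induction ha using Subring.closure_induction with
    | mem x hx =>
      rcases hx with rfl | rfl | rfl | rfl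
      · rw [hsu, hsu']
      · rw [hsu', hsu]
      · rw [hθdef, hscal, hscal, Forms.sqConj_sqConj]
      · rw [hscal, hscal, Forms.sqConj_sqConj]
    | zero => rw [h0, h0]
    | one => rw [h1, h1]
    | add x y _ _ hx hy => rw [hadd, hadd, hx, hy]
    | neg x _ hx => rw [hneg, hneg, hx]
    | mul x y _ _ hx hy => rw [hmul x y, hmul (s y) (s x), hx, hy]
  let σ : Subring.closure S →+* Subring.closure S :=
    { toFun := fun a => ⟨s a, hmem a a.2⟩
      map_one' := Subtype.ext h1
      map_zero' := Subtype.ext h0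
      map_add' := fun a b => Subtype.ext (hadd a b)
      map_mul' := fun a b => by
        rw [mul_comm a b]
        exact Subtype.ext (hmul b a) }
  have hunit : ∀ a : Subring.closure S, IsUnit (a : Matrix (Fin n) (Fin n) F) → IsUnit a := by
    intro a ha
    obtain ⟨b, hb⟩ := Finite.surjective_of_injective
      (f := fun b : Subring.closure S => a * b) (fun b b' e => Subtype.ext (ha.mul_left_cancel (congrArg Subtype.val e))) 1
    exact ⟨⟨a, b, hb, (mul_comm b a).trans hb⟩, rfl⟩
  obtain ⟨g, hgu, hg⟩ := exists_unit_twist σ (fun a => Subtype.ext (hs2 a a.2))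
    (θ := ⟨θ, Subring.subset_closure (Or.inr (Or.inr (Or.inl rfl)))⟩) (hunit _ (by
      show IsUnit (θ - s θ)
      rw [hθdef, hscal, ← sub_smul, ← Algebra.algebraMap_eq_smul_one]
      exact (Ne.isUnit (sub_ne_zero.2 (Ne.symm hc0))).map _))
    (u := ⟨(u : Matrix (Fin n) (Fin n) F), Subring.subset_closure (Or.inl rfl)⟩) (Subtype.ext (by
      show (u : Matrix (Fin n) (Fin n) F) * s u = 1
      rw [hsu, Units.mul_inv]))
  obtain ⟨gu, hgu'⟩ := hgu.map (Subring.closure S).subtype
  have hg' : s (g : Matrix (Fin n) (Fin n) F) * (u : Matrix (Fin n) (Fin n) F) = g :=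
    congrArg Subtype.val hg
  have hgA : A * gu = gu * A := by
    have hle : Subring.closure S ≤ Subring.centralizer {(A : Matrix (Fin n) (Fin n) F)} :=
      Subring.closure_le.2 (by
        intro b hb
        simp only [SetLike.mem_coe, Subring.mem_centralizer_iff, Set.mem_singleton_iff, forall_eq]
        rcases hb with rfl | rfl | rfl | rfl
        · exact congrArg Units.val huA
        · exact congrArg Units.val (show A * u⁻¹ = u⁻¹ * A from Commute.inv_right huA)
        · exact (hsc _ _).symm
        · exact (hsc _ _).symm)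
    refine Units.ext ?_
    rw [Units.val_mul, Units.val_mul, hgu']
    exact Subring.mem_centralizer_iff.1 (hle g.2) _ rfl
  refine ⟨c * gu, ?_, ?_⟩
  · refine Units.ext ?_
    rw [hst, Units.val_mul, ClassConj.cstar_mul, hgu']
    show ClassConj.cstar hF (g : Matrix (Fin n) (Fin n) F) * _ = _ * (g : Matrix (Fin n) (Fin n) F)
    conv_rhs => rw [← hg']
    simp only [s, hu, Units.val_mul, mul_assoc, Units.mul_inv_cancel_left]
    rfl
  · rw [mul_assoc, mul_assoc, ← hgA, ← mul_assoc, ← mul_assoc, hA]

/-- An invertible matrix preserving a non-degenerate sesquilinear form is similar to a unitary one. -/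
theorem exists_unitary_conj (A c : GL (Fin n) F) (hA : cstarU hF A * c * A = c) :
    ∃ B : ↥(Cfsg.GU n F q), IsConj A (B : GL (Fin n) F) := by
  haveI := hF.1
  obtain ⟨H, hH, hHA⟩ := exists_hermitian_invariant hF A c hA
  obtain ⟨c0, hc0⟩ : ∃ x : F, Forms.sqConj hF x ≠ x := by
    by_contra hc
    push Not at hc
    exact Forms.sqConj_ne_id hF (RingHom.ext hc)
  have hscal : ∀ (x : F) (M : Matrix (Fin n) (Fin n) F), Commute (x • (1 : Matrix (Fin n) (Fin n) F)) M :=
    fun x M => (Commute.one_left M).smul_left x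
  obtain ⟨C, ⟨Cu, rfl⟩, hCC, -⟩ := ClassConj.exists_star_mul_eq (ClassConj.cstar hF)
    (ClassConj.cstar_add hF) (ClassConj.cstar_mul hF) (ClassConj.cstar_cstar hF)
    (h := (H : Matrix (Fin n) (Fin n) F)) (θ := c0 • 1) (congrArg Units.val hH) H.isUnit
    (hscal _ _) (hscal _ _) (by
      rw [ClassConj.cstar_smul_one, ← sub_smul, ← Algebra.algebraMap_eq_smul_one]
      exact (Ne.isUnit (sub_ne_zero.2 (Ne.symm hc0))).map _)
  have hstm : ∀ g k : GL (Fin n) F, cstarU hF (g * k) = cstarU hF k * cstarU hF g := fun g k =>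
    Units.ext (ClassConj.cstar_mul hF _ _)
  have hC : cstarU hF Cu * Cu = H := Units.ext hCC
  have hB : Cu * A * Cu⁻¹ ∈ Cfsg.GU n F q := by
    rw [ClassConj.mem_GU_iff_cstar hF]
    show ((cstarU hF (Cu * A * Cu⁻¹) * (Cu * A * Cu⁻¹) : GL (Fin n) F) : Matrix (Fin n) (Fin n) F) = ((1 : GL (Fin n) F) : Matrix (Fin n) (Fin n) F)
    congr 1
    have hinv : cstarU hF Cu⁻¹ = (cstarU hF Cu)⁻¹ := by
      refine eq_inv_of_mul_eq_one_left ?_
      rw [← hstm, mul_inv_cancel]
      exact Units.ext (cstar_one hF)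
    rw [hstm, hstm, hinv]
    calc (cstarU hF Cu)⁻¹ * (cstarU hF A * cstarU hF Cu) * (Cu * A * Cu⁻¹)
        = (cstarU hF Cu)⁻¹ * (cstarU hF A * (cstarU hF Cu * Cu) * A) * Cu⁻¹ := by group
      _ = 1 := by rw [hC, hHA, ← hC]; group
  exact ⟨⟨_, hB⟩, isConj_iff.2 ⟨Cu, rfl⟩⟩

end

end Cfsg.Agent.UClass
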