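import Mathlib

/-!
Classes of the kernel of a homomorphism inside a single class of the whole group.
-/

set_option autoImplicit false
set_option linter.all false

namespace Cfsg.Agent.UClass

/-- The classes of `H ≅ ker δ` inside one class of `G` are indexed by `δ(G)` modulo `δ` of the
centraliser. -/
theorem card_classes_ker {G A H : Type*} [Group G] [CommGroup A] [Group H] (ι : H →* G)
    (hι : Function.Injective ι) (δ : G →* A) (hker : ι.range = δ.ker) (u0 : H) (P : H → Prop)
    (hP : ∀ u, P u ↔ IsConj (ι u0) (ι u)) :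
    Nat.card {C : ConjClasses H // ∃ u, ConjClasses.mk u = C ∧ P u} =
      ((Subgroup.centralizer ({ι u0} : Set G)).map δ).relIndex δ.range := by
  classical
  set Cn := Subgroup.centralizer ({ι u0} : Set G)
  have hu0 : ι u0 ∈ δ.ker := hker ▸ ⟨u0, rfl⟩
  have hmem : ∀ g : G, ∃ u : H, ι u = g * ι u0 * g⁻¹ := fun g => by
    have : g * ι u0 * g⁻¹ ∈ ι.range := hker ▸ (MonoidHom.normal_ker δ).conj_mem _ hu0 g
    exact this
  choose w hw using hmem
  have hPw : ∀ g, P (w g) := fun g => (hP _).2 (isConj_iff.2 ⟨g, (hw g).symm⟩)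
  let f : G → {C : ConjClasses H // ∃ u, ConjClasses.mk u = C ∧ P u} :=
    fun g => ⟨ConjClasses.mk (w g), w g, rfl, hPw g⟩
  have hf : ∀ a b, f a = f b ↔ a⁻¹ * b ∈ (Cn.map δ).comap δ := by
    intro a b
    rw [Subgroup.mem_comap, Subgroup.mem_map]
    constructor
    · intro e
      obtain ⟨x, hx⟩ := isConj_iff.1 (ConjClasses.mk_eq_mk_iff_isConj.1 (congrArg Subtype.val e))
      have h1 := congrArg ι hx
      rw [map_mul, map_mul, map_inv, hw, hw] at h1
      refine ⟨a⁻¹ * (ι x)⁻¹ * b, ?_, ?_⟩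
      · rw [Subgroup.mem_centralizer_singleton_iff]
        calc a⁻¹ * (ι x)⁻¹ * b * ι u0 = a⁻¹ * (ι x)⁻¹ * (b * ι u0 * b⁻¹) * b := by group
          _ = ι u0 * (a⁻¹ * (ι x)⁻¹ * b) := by rw [← h1]; group
      · have hx0 : δ (ι x) = 1 := by rw [← MonoidHom.mem_ker, ← hker]; exact ⟨x, rfl⟩
        rw [map_mul, map_mul, map_mul, map_inv, map_inv, hx0, inv_one, mul_one]
    · rintro ⟨c, hc, hc'⟩
      apply Subtype.ext
      refine ConjClasses.mk_eq_mk_iff_isConj.2 (IsConj.symm (isConj_iff.2 ?_))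
      have hk : a * c * b⁻¹ ∈ ι.range := by
        rw [hker, MonoidHom.mem_ker, map_mul, map_mul, hc', map_mul, map_inv, map_inv]
        rw [mul_inv_cancel_left, mul_inv_cancel]
      obtain ⟨x, hx⟩ := hk
      refine ⟨x, hι ?_⟩
      rw [map_mul, map_mul, map_inv, hw, hw, hx]
      have hcc := Subgroup.mem_centralizer_singleton_iff.1 hc
      calc a * c * b⁻¹ * (b * ι u0 * b⁻¹) * (a * c * b⁻¹)⁻¹ = a * (c * ι u0) * c⁻¹ * a⁻¹ := by group
        _ = a * ι u0 * a⁻¹ := by rw [hcc]; group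
  have hsurj : Function.Surjective f := by
    rintro ⟨C, u, rfl, hu⟩
    obtain ⟨g, hg⟩ := isConj_iff.1 ((hP u).1 hu)
    refine ⟨g, Subtype.ext (congrArg ConjClasses.mk (hι ?_))⟩
    rw [hw, hg]
  rw [← Subgroup.index_comap, Subgroup.index_eq_card]
  refine (Nat.card_eq_of_bijective (Quotient.lift f fun a b e => (hf a b).2
    (QuotientGroup.leftRel_apply.1 e)) ⟨?_, ?_⟩).symm
  · intro x y
    induction x using Quotient.inductionOn with
    | h a =>
      induction y using Quotient.inductionOn with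
      | h b => exact fun e => Quotient.sound (QuotientGroup.leftRel_apply.2 ((hf a b).1 e))
  · intro C
    obtain ⟨g, rfl⟩ := hsurj C
    exact ⟨Quotient.mk _ g, rfl⟩

end Cfsg.Agent.UClass
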