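import Cfsg.Agent.UClass.Twist
import Cfsg.Agent.ClassicalElem.RegularNilpotent
import Cfsg.Agent.Spectrum.Linear

/-!
Regular unipotent elements of the unitary groups.
-/

set_option autoImplicit false
set_option linter.all false

namespace Cfsg.Agent.UClass

open Matrix Cfsg.Agent.Classical

/-- A map commuting with a regular nilpotent one is a scalar plus a nilpotent. -/
theorem exists_scalar_add_nilpotent {K : Type*} [Field K] {V : Type*} [AddCommGroup V] [Module K V]
    [FiniteDimensional K V] {N : V →ₗ[K] V} {n : ℕ} (h : ClassicalElem.IsRegularNilpotent N n)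
    {g : V →ₗ[K] V} (hg : Commute g N) :
    ∃ c : K, IsNilpotent (g - c • 1) ∧ LinearMap.det g = c ^ n := by
  obtain ⟨v, hv⟩ := h.exists_cyclic_vector
  have hspan : LinearMap.ker N = Submodule.span K {(N ^ (n - 1)) v} := by
    refine (Submodule.eq_of_le_of_finrank_eq ?_ ?_).symm
    · rw [Submodule.span_singleton_le_iff_mem, LinearMap.mem_ker, ← Module.End.mul_apply, ← pow_succ',
        Nat.sub_add_cancel h.pos, h.pow_eq_zero, LinearMap.zero_apply]
    · rw [finrank_span_singleton hv, h.finrank_ker]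
  have h1 : (N ^ (n - 1)) (g v) ∈ LinearMap.ker N := by
    rw [LinearMap.mem_ker, ← Module.End.mul_apply, ← pow_succ', Nat.sub_add_cancel h.pos, h.pow_eq_zero,
      LinearMap.zero_apply]
  rw [hspan, Submodule.mem_span_singleton] at h1
  obtain ⟨c, hc⟩ := h1
  refine ⟨c, ?_⟩
  have h2 : g v - c • v ∈ LinearMap.range N := by
    have h4 : LinearMap.range N = LinearMap.ker (N ^ (n - 1)) := by
      have := h.range_eq_ker_pow (k := n - 1) (Nat.sub_le n 1)
      rwa [show n - (n - 1) = 1 by have := h.pos; omega, pow_one] at this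
    rw [h4, LinearMap.mem_ker, map_sub, map_smul, hc, sub_self]
  obtain ⟨w, hw⟩ := h2
  obtain ⟨g', hg', hg'v⟩ := h.exists_commuting_map hv w
  set M := N * g' with hM
  have hcommc : Commute (c • (1 : V →ₗ[K] V)) N := (Commute.one_left N).smul_left c
  have hMN : Commute M N := (Commute.refl N).mul_left hg'
  have hgeq : g = c • 1 + M := by
    refine h.centralizer_ext hv hg (hcommc.add_left hMN) ?_
    simp [hM, hg'v, hw]
  have hMnil : IsNilpotent M := ⟨n, by rw [hM, hg'.symm.mul_pow, h.pow_eq_zero, zero_mul]⟩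
  refine ⟨by rw [hgeq, add_sub_cancel_left]; exact hMnil, ?_⟩
  have := LinearMap.eval_charpoly (-M) c
  rw [hMnil.neg.charpoly_eq_X_pow_finrank, Polynomial.eval_pow, Polynomial.eval_X, h.finrank_eq] at this
  rw [this, hgeq]
  congr 1
  rw [sub_neg_eq_add, Algebra.algebraMap_eq_smul_one]

variable {F : Type*} [Field F] {n q : ℕ}

/-- The standard regular nilpotent matrix has rank `n - 1`. -/
theorem rank_shiftMatrix [Finite F] (hn : 1 ≤ n) : (Spectrum.shiftMatrix n F).rank = n - 1 := by
  letI : Fintype F := Fintype.ofFinite F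
  have hN0 : (Spectrum.shiftMatrix n F) ^ n = 0 := (Spectrum.shiftMatrix_pow_eq_zero_iff n n).mpr le_rfl
  apply le_antisymm
  · by_contra hlt
    rw [not_le] at hlt
    have := Matrix.rank_le_card_width (Spectrum.shiftMatrix n F)
    rw [Fintype.card_fin] at this
    have hr : (Spectrum.shiftMatrix n F).rank = n := by omega
    have hsurj : LinearMap.range (Matrix.mulVecLin (Spectrum.shiftMatrix n F)) = ⊤ := by
      apply Submodule.eq_top_of_finrank_eq
      rw [Module.finrank_fin_fun]
      exact hr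
    have := Matrix.mulVec_surjective_iff_isUnit.mp (LinearMap.range_eq_top.mp hsurj)
    have h2 := this.pow n
    rw [hN0, isUnit_zero_iff] at h2
    haveI : Nonempty (Fin n) := ⟨⟨0, by omega⟩⟩
    exact zero_ne_one h2
  · have hker : LinearMap.ker (Matrix.mulVecLin (Spectrum.shiftMatrix n F)) ≤
        Submodule.span F {Pi.single (⟨n - 1, by omega⟩ : Fin n) 1} := by
      intro x hx
      rw [Submodule.mem_span_singleton]
      refine ⟨x ⟨n - 1, by omega⟩, funext fun i => ?_⟩
      by_cases hi : (i : ℕ) = n - 1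
      · have hi' : i = ⟨n - 1, by omega⟩ := Fin.ext hi
        simp [hi']
      · have := congrFun (LinearMap.mem_ker.mp hx) ⟨i + 1, by omega⟩
        simp only [Matrix.mulVecLin_apply, Matrix.mulVec, dotProduct, Pi.zero_apply] at this
        rw [Finset.sum_eq_single i] at this
        · simp [Spectrum.shiftMatrix] at this
          simp [this, Pi.single_apply, Fin.ext_iff, hi]
        · intro b _ hb
          simp [Spectrum.shiftMatrix, Ne.symm (Fin.val_ne_of_ne hb)]
        · simp
    have h1 := Submodule.finrank_mono hker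
    rw [finrank_span_singleton (by simp)] at h1
    have := LinearMap.finrank_range_add_finrank_ker (Matrix.mulVecLin (Spectrum.shiftMatrix n F))
    rw [Module.finrank_fin_fun] at this
    unfold Matrix.rank
    omega

variable (hF : U.SqField F q)

include hF

/-- The unitary group has a regular unipotent element, of determinant one. -/
theorem exists_regular_unipotent (hn : 1 ≤ n) :
    ∃ B : ↥(Cfsg.GU n F q), (((B : GL (Fin n) F) : Matrix (Fin n) (Fin n) F) - 1) ^ n = 0 ∧
      (((B : GL (Fin n) F) : Matrix (Fin n) (Fin n) F) - 1).rank = n - 1 ∧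
      ((B : GL (Fin n) F) : Matrix (Fin n) (Fin n) F).det = 1 := by
  classical
  haveI := hF.1
  letI : Fintype F := Fintype.ofFinite F
  set N := Spectrum.shiftMatrix n F with hN
  have hN0 : N ^ n = 0 := (Spectrum.shiftMatrix_pow_eq_zero_iff n n).mpr le_rfl
  have hr : N.rank = n - 1 := rank_shiftMatrix hn
  have hu0det : (1 + N).det = 1 := by
    rw [Matrix.det_of_lowerTriangular]
    · simp [hN, Spectrum.shiftMatrix]
    · intro i j hij
      have h1 : i < j := hij
      simp [hN, Spectrum.shiftMatrix, Matrix.one_apply_ne (ne_of_lt h1), show ¬ (i : ℕ) = (j : ℕ) + 1 by omega]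
  let u : GL (Fin n) F := Matrix.GeneralLinearGroup.mkOfDetNeZero (1 + N) (by rw [hu0det]; exact one_ne_zero)
  have hNs : ClassConj.cstar hF N = Nᵀ := by
    ext i j
    show Forms.sqConj hF (N j i) = N j i
    simp only [hN, Spectrum.shiftMatrix, Matrix.of_apply]
    split_ifs <;> simp
  set V := (cstarU hF u)⁻¹ with hV
  have hVv : (cstarU hF u : Matrix (Fin n) (Fin n) F) = 1 + Nᵀ := by
    show ClassConj.cstar hF (1 + N) = _
    rw [ClassConj.cstar_add, cstar_one, hNs]
  have e1 : (V : Matrix (Fin n) (Fin n) F) * (1 + Nᵀ) = 1 := by rw [← hVv, hV, Units.inv_mul]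
  have e2 : (1 + Nᵀ) * (V : Matrix (Fin n) (Fin n) F) = 1 := by rw [← hVv, hV, Units.mul_inv]
  have hVN : (V : Matrix (Fin n) (Fin n) F) - 1 = -((V : Matrix (Fin n) (Fin n) F) * Nᵀ) := by
    rw [mul_add, mul_one] at e1
    rw [← sub_eq_iff_eq_add'.2 e1.symm]; abel
  have hcm : Commute (V : Matrix (Fin n) (Fin n) F) Nᵀ := by
    rw [mul_add, mul_one] at e1
    rw [add_mul, one_mul, ← e1] at e2
    exact (add_left_cancel e2).symm
  have hW0 : ((V : Matrix (Fin n) (Fin n) F) - 1) ^ n = 0 := by
    rw [hVN, ← neg_mul, hcm.neg_left.mul_pow, ← Matrix.transpose_pow, hN0, Matrix.transpose_zero, mul_zero]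
  have hWr : ((V : Matrix (Fin n) (Fin n) F) - 1).rank = n - 1 := by
    rw [hVN, ← neg_mul, Matrix.rank_mul_eq_right_of_isUnit_det, Matrix.rank_transpose, hr]
    exact (Matrix.isUnit_iff_isUnit_det _).mp V.isUnit.neg
  obtain ⟨P, hP⟩ := ClassicalElem.isConj_of_regular (Fintype.card_fin n) hn hN0 hr hW0 hWr
  have hPu : P * u = V * P := Units.ext (by
    show (P : Matrix (Fin n) (Fin n) F) * (1 + N) = (V : Matrix (Fin n) (Fin n) F) * P
    rw [mul_add, mul_one, hP, sub_mul, one_mul]; abel)
  obtain ⟨B, hB⟩ := exists_unitary_conj hF u P (by rw [mul_assoc, hPu, hV, mul_inv_cancel_left])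
  obtain ⟨g, hg⟩ := isConj_iff.1 hB
  have hBv : ((B : GL (Fin n) F) : Matrix (Fin n) (Fin n) F) - 1 =
      (g : Matrix (Fin n) (Fin n) F) * N * ((g⁻¹ : GL (Fin n) F) : Matrix (Fin n) (Fin n) F) := by
    rw [← hg, Units.val_mul, Units.val_mul]
    show _ * (1 + N) * _ - 1 = _
    rw [mul_add, mul_one, add_mul, Units.mul_inv]; abel
  refine ⟨B, ?_, ?_, ?_⟩
  · rw [hBv, Units.conj_pow, hN0, mul_zero, zero_mul]
  · rw [hBv, Matrix.rank_mul_eq_left_of_isUnit_det, Matrix.rank_mul_eq_right_of_isUnit_det, hr]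
    · exact (Matrix.isUnit_iff_isUnit_det _).mp g.isUnit
    · exact (Matrix.isUnit_iff_isUnit_det _).mp (g⁻¹).isUnit
  · rw [← hg, Units.val_mul, Units.val_mul, Matrix.det_units_conj]
    exact hu0det

/-- A unitary element commuting with a regular unipotent one has as determinant the `n`-th power
of a norm one scalar. -/
theorem det_commuting_unitary (B g : ↥(Cfsg.GU n F q)) (hn : 1 ≤ n)
    (h0 : (((B : GL (Fin n) F) : Matrix (Fin n) (Fin n) F) - 1) ^ n = 0)
    (hr : (((B : GL (Fin n) F) : Matrix (Fin n) (Fin n) F) - 1).rank = n - 1)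
    (hgB : g * B = B * g) :
    ∃ c : F, c ^ (q + 1) = 1 ∧ ((g : GL (Fin n) F) : Matrix (Fin n) (Fin n) F).det = c ^ n := by
  set G := ((g : GL (Fin n) F) : Matrix (Fin n) (Fin n) F) with hG
  have hGB : Commute G ((B : GL (Fin n) F) : Matrix (Fin n) (Fin n) F) :=
    congrArg (fun x : ↥(Cfsg.GU n F q) => ((x : GL (Fin n) F) : Matrix (Fin n) (Fin n) F)) hgB
  obtain ⟨c, hnil, hdet⟩ := exists_scalar_add_nilpotent
    (ClassicalElem.isRegularNilpotent_of_matrix _ n (Fintype.card_fin n) hn h0 hr)
    ((hGB.sub_right (Commute.one_right _)).map Matrix.toLinAlgEquiv')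
  rw [show LinearMap.det (Matrix.toLinAlgEquiv' G) = G.det from LinearMap.det_toLin' _] at hdet
  refine ⟨c, ?_, hdet⟩
  set D := G - c • (1 : Matrix (Fin n) (Fin n) F) with hD
  have hDnil : IsNilpotent D := by
    have h := hnil.map (Matrix.toLinAlgEquiv' (R := F) (n := Fin n)).symm
    simpa [hD] using h
  have hG2 : ClassConj.cstar hF G * G = 1 := (ClassConj.mem_GU_iff_cstar hF _).1 g.2
  have hG3 : G * ClassConj.cstar hF G = 1 := mul_eq_one_comm.1 hG2
  have hcsub : ∀ M K : Matrix (Fin n) (Fin n) F,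
      ClassConj.cstar hF (M - K) = ClassConj.cstar hF M - ClassConj.cstar hF K := fun M K =>
    eq_sub_of_add_eq (by rw [← ClassConj.cstar_add, sub_add_cancel])
  have hDs : ClassConj.cstar hF D = ClassConj.cstar hF G - Forms.sqConj hF c • (1 : Matrix (Fin n) (Fin n) F) := by
    rw [hD, hcsub, ClassConj.cstar_smul_one]
  have hDsnil : IsNilpotent (ClassConj.cstar hF D) := by
    obtain ⟨k, hk⟩ := hDnil
    refine ⟨k, ?_⟩
    have hp : ∀ k, ClassConj.cstar hF D ^ k = ClassConj.cstar hF (D ^ k) := by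
      intro k
      induction k with
      | zero => rw [pow_zero, pow_zero, cstar_one]
      | succ k ih => rw [pow_succ, ih, pow_succ' D, ClassConj.cstar_mul]
    rw [hp, hk]
    simpa using ClassConj.cstar_smul_one hF (n := n) (0 : F)
  have hscal : ∀ (x : F) (M : Matrix (Fin n) (Fin n) F), Commute (x • (1 : Matrix (Fin n) (Fin n) F)) M :=
    fun x M => (Commute.one_left M).smul_left x
  have hcomm : Commute (ClassConj.cstar hF D) D := by
    rw [hDs, hD]
    exact ((show Commute (ClassConj.cstar hF G) G from hG2.trans hG3.symm).sub_left (hscal _ _)).sub_right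
      ((hscal _ _).symm)
  have heq : (1 - Forms.sqConj hF c * c) • (1 : Matrix (Fin n) (Fin n) F) =
      Forms.sqConj hF c • D + (c • ClassConj.cstar hF D + ClassConj.cstar hF D * D) := by
    rw [hDs, hD, sub_mul, mul_sub, mul_sub, hG2, smul_sub, smul_sub, smul_smul, smul_smul]
    simp only [smul_mul_assoc, one_mul, mul_smul_comm, mul_one, smul_smul, sub_smul, one_smul]
    rw [mul_comm c]
    abel
  have hn1 : IsNilpotent ((1 - Forms.sqConj hF c * c) • (1 : Matrix (Fin n) (Fin n) F)) := by
    rw [heq]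
    refine Commute.isNilpotent_add ?_ (hDnil.smul _) ?_
    · exact ((hcomm.symm.smul_right c).add_right (hcomm.symm.mul_right (Commute.refl D))).smul_left _
    · exact Commute.isNilpotent_add ((Commute.refl _).mul_right hcomm |>.smul_left c) (hDsnil.smul _)
        (hcomm.isNilpotent_mul_right hDsnil)
  haveI : Nonempty (Fin n) := ⟨⟨0, by omega⟩⟩
  rw [← Algebra.algebraMap_eq_smul_one] at hn1
  have := ((IsNilpotent.map_iff (algebraMap F (Matrix (Fin n) (Fin n) F)).injective).1 hn1).eq_zero
  rw [sub_eq_zero] at this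
  rw [pow_succ]
  exact this.symm

end Cfsg.Agent.UClass
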