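import Cfsg.Agent.UClass.Regular
import Cfsg.Agent.ClassConj.JordanCentralizer

/-!
Centralisers of unipotent elements in the general unitary groups.
-/

set_option autoImplicit false
set_option linter.all false

namespace Cfsg.Agent.UClass

open Cfsg.Agent.Classical Matrix
open ClassConj (JIdx jordanShift topPart BlockSet)

section Count

/-- Norm one elements and fixed units of a centraliser subring. -/
theorem card_normOne_mul_fixed {E : Type*} [Ring E] [Finite E] (s : E → E)
    (hadd : ∀ a b, s (a + b) = s a + s b) (hmul : ∀ a b, s (a * b) = s b * s a) (hs2 : ∀ a, s (s a) = a)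
    (θ : E) (hθc : ∀ a, Commute θ a) (hθc' : ∀ a, Commute (s θ) a) (hθ : IsUnit (θ - s θ))
    (S : Set E) (hS : ∀ x ∈ Subring.centralizer S, s x ∈ Subring.centralizer S) :
    Nat.card {x : E // x ∈ Subring.centralizer S ∧ s x * x = 1} *
      Nat.card {h : E // h ∈ Subring.centralizer S ∧ IsUnit h ∧ s h = h} =
      Nat.card {x : E // x ∈ Subring.centralizer S ∧ IsUnit x} := by
  classical
  have h1 : s 1 = 1 := by
    have := hmul 1 (s 1)
    rwa [one_mul, hs2, one_mul, eq_comm] at this
  have hex : ∀ h : {h : E // h ∈ Subring.centralizer S ∧ IsUnit h ∧ s h = h},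
      ∃ c : Eˣ, (c : E) ∈ Subring.centralizer S ∧ s c * c = h.1 := by
    rintro ⟨h, hC, hu, hh⟩
    obtain ⟨c, ⟨c, rfl⟩, hc, hbi⟩ := ClassConj.exists_star_mul_eq s hadd hmul hs2 hh hu (hθc h) (hθc (s θ)) hθ
    refine ⟨c, Subring.mem_centralizer_iff.2 fun a ha => ?_, hc⟩
    exact hbi a (Subring.mem_centralizer_iff.1 hC a ha) (hθc a).symm (hθc' a).symm
  choose c hcC hc using hex
  have hinv : ∀ u : Eˣ, (u : E) ∈ Subring.centralizer S → ((u⁻¹ : Eˣ) : E) ∈ Subring.centralizer S :=
    fun u hu => Subring.mem_centralizer_iff.2 fun a ha =>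
      (show Commute a (u : E) from Subring.mem_centralizer_iff.1 hu a ha).units_inv_right
  have hsi : ∀ u : Eˣ, s (u⁻¹ : Eˣ) * s u = 1 := fun u => by rw [← hmul, Units.mul_inv, h1]
  have hsi' : ∀ u : Eˣ, s u * s (u⁻¹ : Eˣ) = 1 := fun u => by rw [← hmul, Units.inv_mul, h1]
  let H := {h : E // h ∈ Subring.centralizer S ∧ IsUnit h ∧ s h = h}
  let U := {x : E // x ∈ Subring.centralizer S ∧ s x * x = 1}
  let X := {x : E // x ∈ Subring.centralizer S ∧ IsUnit x}
  let fH : X → H := fun x => ⟨s x.1 * x.1, mul_mem (hS _ x.2.1) x.2.1, by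
    obtain ⟨u, hu⟩ := x.2.2
    rw [← hu]
    exact IsUnit.mul ⟨⟨s u, s (u⁻¹ : Eˣ), hsi' u, hsi u⟩, rfl⟩ u.isUnit, by rw [hmul, hs2]⟩
  rw [← Nat.card_prod]
  refine Nat.card_congr
    { toFun := fun p => ⟨p.1.1 * c p.2, mul_mem p.1.2.1 (hcC _),
        (IsUnit.of_mul_eq_one _ (mul_eq_one_comm.1 p.1.2.2)).mul (c p.2).isUnit⟩
      invFun := fun x => (⟨x.1 * ((c (fH x))⁻¹ : Eˣ), mul_mem x.2.1 (hinv _ (hcC _)), ?_⟩, fH x)
      left_inv := ?_
      right_inv := fun x => Subtype.ext (by simp only [mul_assoc, Units.inv_mul, mul_one]) }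
  · rw [hmul, mul_assoc, ← mul_assoc (s x.1), show s x.1 * x.1 = (fH x).1 from rfl, ← hc (fH x), mul_assoc (s _),
      Units.mul_inv, mul_one, hsi]
  · rintro ⟨⟨u, hu, huu⟩, h⟩
    have e : fH ⟨u * c h, mul_mem hu (hcC _), (IsUnit.of_mul_eq_one _ (mul_eq_one_comm.1 huu)).mul (c h).isUnit⟩ = h := by
      refine Subtype.ext ?_
      show s (u * c h) * (u * c h) = h.1
      rw [hmul, mul_assoc, ← mul_assoc (s u), huu, one_mul, hc]
    refine Prod.ext (Subtype.ext ?_) e
    show u * (c h : E) * ((c (fH _))⁻¹ : Eˣ) = u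
    rw [e, Units.mul_inv_cancel_right]

end Count

variable {F : Type*} [Field F] {q : ℕ} (hF : U.SqField F q)

/-- The conjugate transpose for any index types. -/
noncomputable def adj {ι κ : Type*} (M : Matrix ι κ F) : Matrix κ ι F := (M.map (Forms.sqConj hF))ᵀ

theorem adj_apply {ι κ : Type*} (M : Matrix ι κ F) (i : ι) (j : κ) : adj hF M j i = Forms.sqConj hF (M i j) := rfl

theorem adj_add {ι κ : Type*} (M N : Matrix ι κ F) : adj hF (M + N) = adj hF M + adj hF N := by
  rw [adj, Matrix.map_add _ (map_add (Forms.sqConj hF)), transpose_add]; rfl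

theorem adj_mul {ι : Type*} [Fintype ι] (M N : Matrix ι ι F) : adj hF (M * N) = adj hF N * adj hF M := by
  rw [adj, Matrix.map_mul, transpose_mul]; rfl

theorem adj_adj {ι κ : Type*} (M : Matrix ι κ F) : adj hF (adj hF M) = M := by
  ext i j
  exact Forms.sqConj_sqConj hF _

theorem adj_smul_one {ι : Type*} [DecidableEq ι] (c : F) :
    adj hF (c • (1 : Matrix ι ι F)) = (Forms.sqConj hF c) • 1 := by
  ext i j
  rcases eq_or_ne j i with rfl | h <;> simp [adj, *, Ne.symm]

theorem adj_one {ι : Type*} [DecidableEq ι] : adj hF (1 : Matrix ι ι F) = 1 := by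
  simpa using adj_smul_one hF (ι := ι) 1

theorem adj_blockDiagonal' {o : Type*} [DecidableEq o] {m : o → Type*} (M : ∀ k, Matrix (m k) (m k) F) :
    adj hF (Matrix.blockDiagonal' M) = Matrix.blockDiagonal' fun k => adj hF (M k) := by
  rw [adj, Matrix.blockDiagonal'_map _ _ (map_zero _), Matrix.blockDiagonal'_transpose]
  rfl

/-- A Hermitian form left invariant by a Jordan block. -/
theorem exists_form_jordanBlock (i : ℕ) :
    ∃ G : Matrix (Fin i) (Fin i) F, adj hF G = G ∧ IsUnit G ∧
      adj hF (Cfsg.jordanBlock i F) * G * Cfsg.jordanBlock i F = G := by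
  haveI := hF.1
  letI : Fintype F := Fintype.ofFinite F
  rcases Nat.eq_zero_or_pos i with rfl | hi
  · exact ⟨1, Subsingleton.elim _ _, isUnit_one, Subsingleton.elim _ _⟩
  obtain ⟨B, hB0, hBr, -⟩ := exists_regular_unipotent hF (n := i) hi
  have hJ : Cfsg.jordanBlock i F - 1 = Spectrum.shiftMatrix i F := by
    ext a b
    rcases eq_or_ne a b with rfl | h
    · simp [Cfsg.jordanBlock, Spectrum.shiftMatrix]
    · simp [Cfsg.jordanBlock, Spectrum.shiftMatrix, Matrix.one_apply_ne h, Fin.val_ne_of_ne h]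
  obtain ⟨P, hP⟩ := ClassicalElem.isConj_of_regular (Fintype.card_fin i) hi
    (h := (Spectrum.shiftMatrix_pow_eq_zero_iff (F := F) i i).mpr le_rfl) (rank_shiftMatrix hi) hB0 hBr
  set b := ((B : GL (Fin i) F) : Matrix (Fin i) (Fin i) F)
  have hPJ : (P : Matrix (Fin i) (Fin i) F) * Cfsg.jordanBlock i F = b * P := by
    rw [← hJ, mul_sub, sub_mul, mul_one, one_mul] at hP
    exact sub_left_injective hP
  have hb : adj hF b * b = 1 := (ClassConj.mem_GU_iff_cstar hF _).1 B.2
  refine ⟨adj hF (P : Matrix (Fin i) (Fin i) F) * P, by rw [adj_mul, adj_adj], ?_, ?_⟩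
  · refine IsUnit.mul ⟨⟨adj hF (P : Matrix (Fin i) (Fin i) F), adj hF ((P⁻¹ : GL (Fin i) F) : Matrix (Fin i) (Fin i) F),
      by rw [← adj_mul, Units.inv_mul, adj_one], by rw [← adj_mul, Units.mul_inv, adj_one]⟩, rfl⟩ P.isUnit
  · calc adj hF (Cfsg.jordanBlock i F) * (adj hF (P : Matrix (Fin i) (Fin i) F) * P) * Cfsg.jordanBlock i F
        = adj hF ((P : Matrix (Fin i) (Fin i) F) * Cfsg.jordanBlock i F) * ((P : Matrix (Fin i) (Fin i) F) * Cfsg.jordanBlock i F) := by
          rw [adj_mul]; simp only [mul_assoc]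
      _ = adj hF (P : Matrix (Fin i) (Fin i) F) * (adj hF b * b) * P := by
          rw [hPJ, adj_mul]; simp only [mul_assoc]
      _ = _ := by rw [hb, mul_one]

variable {t : ℕ} {d : Fin t → ℕ}

/-- The block of top entries. -/
def topAll (hd : ∀ k, 1 ≤ d k) (X : Matrix (JIdx d) (JIdx d) F) : Matrix (Fin t) (Fin t) F :=
  Matrix.of fun l k => if d l = d k then X ⟨l, ⟨0, hd l⟩⟩ ⟨k, ⟨0, hd k⟩⟩ else 0

theorem topAll_mul (hd : ∀ k, 1 ≤ d k) {X Y : Matrix (JIdx d) (JIdx d) F}
    (hX : X * jordanShift d = jordanShift d * X) (hY : Y * jordanShift d = jordanShift d * Y) :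
    topAll hd (X * Y) = topAll hd X * topAll hd Y := by
  ext l k
  rw [Matrix.mul_apply]
  simp only [topAll, Matrix.of_apply]
  by_cases h : d l = d k
  · rw [if_pos h]
    have h1 := congrFun (congrFun (ClassConj.topPart_mul hd hX hY (d l)) ⟨l, rfl⟩) ⟨k, h.symm⟩
    rw [Matrix.mul_apply] at h1
    simp only [topPart, Matrix.of_apply] at h1
    rw [h1]
    refine Finset.sum_of_injOn (fun m => m.1) Subtype.val_injective.injOn (fun _ _ => Finset.mem_univ _) ?_ ?_
    · intro m _ hm
      have : ¬ d l = d m := fun e => hm ⟨⟨m, e.symm⟩, Finset.mem_coe.2 (Finset.mem_univ _), rfl⟩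
      rw [if_neg this, zero_mul]
    · intro m _
      rw [if_pos m.2.symm, if_pos (m.2.trans h)]
  · rw [if_neg h]
    refine (Finset.sum_eq_zero fun m _ => ?_).symm
    by_cases h1 : d l = d m
    · rw [if_neg (fun e => h (h1.trans e)), mul_zero]
    · rw [if_neg h1, zero_mul]

/-- The projections to the block sizes. -/
def sizeProj (d : Fin t → ℕ) (i : ℕ) : Matrix (Fin t) (Fin t) F :=
  Matrix.diagonal fun k => if d k = i then 1 else 0

/-- Block diagonal matrices by block size. -/
abbrev sizeRing (F : Type*) [Field F] (d : Fin t → ℕ) : Subring (Matrix (Fin t) (Fin t) F) :=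
  Subring.centralizer (Set.range (sizeProj (F := F) d))

theorem mem_sizeRing {M : Matrix (Fin t) (Fin t) F} :
    M ∈ sizeRing F d ↔ ∀ l k, d l ≠ d k → M l k = 0 := by
  rw [Subring.mem_centralizer_iff]
  constructor
  · intro h l k hlk
    have := congrFun (congrFun (h _ ⟨d l, rfl⟩) l) k
    rw [sizeProj, Matrix.diagonal_mul, Matrix.mul_diagonal, if_pos rfl, if_neg hlk.symm, one_mul, mul_zero] at this
    exact this
  · rintro h _ ⟨i, rfl⟩
    ext l k
    rw [sizeProj, Matrix.diagonal_mul, Matrix.mul_diagonal]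
    by_cases hlk : d l = d k
    · rw [hlk, mul_comm]
    · rw [h l k hlk, mul_zero, zero_mul]

theorem topAll_mem (hd : ∀ k, 1 ≤ d k) (X : Matrix (JIdx d) (JIdx d) F) : topAll hd X ∈ sizeRing F d :=
  mem_sizeRing.2 fun l k h => if_neg h

/-- Scalar blocks. -/
def liftBlocks (M : Matrix (Fin t) (Fin t) F) : Matrix (JIdx d) (JIdx d) F :=
  Matrix.of fun p r => if (p.2 : ℕ) = r.2 ∧ d p.1 = d r.1 then M p.1 r.1 else 0

theorem liftBlocks_commute (M : Matrix (Fin t) (Fin t) F) :
    (liftBlocks M : Matrix (JIdx d) (JIdx d) F) * jordanShift d = jordanShift d * liftBlocks M := by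
  ext ⟨l, b⟩ ⟨k, a⟩
  rw [ClassConj.mul_shift_apply, ClassConj.shift_mul_apply]
  simp only [liftBlocks, Matrix.of_apply]
  have ha := a.2
  have hb := b.2
  split_ifs <;> first
    | rfl
    | (exfalso; omega)

theorem topAll_liftBlocks (hd : ∀ k, 1 ≤ d k) {M : Matrix (Fin t) (Fin t) F} (hM : M ∈ sizeRing F d) :
    topAll hd (liftBlocks M) = M := by
  ext l k
  simp only [topAll, liftBlocks, Matrix.of_apply, true_and]
  by_cases h : d l = d k
  · rw [if_pos h, if_pos h]
  · rw [if_neg h, mem_sizeRing.1 hM l k h]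

theorem adj_liftBlocks (M : Matrix (Fin t) (Fin t) F) :
    adj hF (liftBlocks M : Matrix (JIdx d) (JIdx d) F) = liftBlocks (adj hF M) := by
  ext p r
  simp only [adj_apply, liftBlocks, Matrix.of_apply]
  rw [apply_ite (Forms.sqConj hF), map_zero]
  exact if_congr ⟨fun h => ⟨h.1.symm, h.2.symm⟩, fun h => ⟨h.1.symm, h.2.symm⟩⟩ rfl rfl

theorem topAll_one (hd : ∀ k, 1 ≤ d k) : topAll hd (1 : Matrix (JIdx d) (JIdx d) F) = 1 := by
  ext l k
  simp only [topAll, Matrix.of_apply]
  rcases eq_or_ne l k with rfl | h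
  · simp
  · rw [Matrix.one_apply_ne h, Matrix.one_apply_ne (fun e => h (congrArg Sigma.fst e)), ite_self]

theorem isUnit_iff_topAll [Finite F] (hd : ∀ k, 1 ≤ d k) {X : Matrix (JIdx d) (JIdx d) F}
    (hX : X * jordanShift d = jordanShift d * X) : IsUnit X ↔ IsUnit (topAll hd X) := by
  constructor
  · rintro ⟨u, rfl⟩
    have hu := Commute.units_inv_left (show Commute (u : Matrix (JIdx d) (JIdx d) F) (jordanShift d) from hX)
    exact ⟨⟨topAll hd (u : Matrix (JIdx d) (JIdx d) F), topAll hd ((u⁻¹ : _ˣ) : Matrix (JIdx d) (JIdx d) F),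
      by rw [← topAll_mul hd hX hu.eq, Units.mul_inv, topAll_one],
      by rw [← topAll_mul hd hu.eq hX, Units.inv_mul, topAll_one]⟩, rfl⟩
  · rintro ⟨v, hv⟩
    obtain ⟨e, he, hve⟩ := (isOfFinOrder_of_finite v).exists_pow_eq_one
    have hXc : ∀ j, X ^ j * jordanShift d = jordanShift d * X ^ j := fun j =>
      (show Commute X (jordanShift d) from hX).pow_left j
    have hpow : ∀ j, topAll hd (X ^ j) = topAll hd X ^ j := by
      intro j
      induction j with
      | zero => rw [pow_zero, pow_zero, topAll_one]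
      | succ j ih => rw [pow_succ, topAll_mul hd (hXc j) hX, ih, pow_succ]
    have htop : topAll hd (X ^ e) = 1 := by
      rw [hpow, ← hv, ← Units.val_pow_eq_pow_val, hve, Units.val_one]
    have hn : IsNilpotent (X ^ e - 1) := by
      refine ClassConj.isNilpotent_of_topPart_eq_zero hd (by rw [sub_mul, mul_sub, hXc, one_mul, mul_one]) fun i => ?_
      ext ⟨l, hl⟩ ⟨k, hk⟩
      have h1 := congrFun (congrFun htop l) k
      rw [← topAll_one (F := F) hd] at h1
      simp only [topAll, Matrix.of_apply, if_pos (hl.trans hk.symm)] at h1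
      simp only [topPart, Matrix.of_apply, Matrix.sub_apply, Matrix.zero_apply]
      exact sub_eq_zero.2 h1
    have := hn.isUnit_one_add
    rw [add_sub_cancel] at this
    exact (isUnit_pow_iff he.ne').1 this

theorem card_sizeRing_subtype (d : Fin t → ℕ) (p : ∀ {n : ℕ}, Matrix (Fin n) (Fin n) F → Prop)
    (hp : ∀ M : Matrix (Fin t) (Fin t) F, M ∈ sizeRing F d → (p M ↔ ∀ i : Fin (Finset.univ.sup d + 1),
      p (M.submatrix (fun x : Fin (Fintype.card (BlockSet d i)) => ((Fintype.equivFin _).symm x).1)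
        (fun x : Fin (Fintype.card (BlockSet d i)) => ((Fintype.equivFin _).symm x).1)))) :
    Nat.card {M : Matrix (Fin t) (Fin t) F // M ∈ sizeRing F d ∧ p M} =
      ∏ i : Fin (Finset.univ.sup d + 1),
        Nat.card {A : Matrix (Fin (Fintype.card (BlockSet d i))) (Fin (Fintype.card (BlockSet d i))) F // p A} := by
  classical
  rw [← Nat.card_pi]
  let e : ∀ i : Fin (Finset.univ.sup d + 1), BlockSet d i ≃ Fin (Fintype.card (BlockSet d i)) :=
    fun i => Fintype.equivFin _
  let ix : Fin t → Fin (Finset.univ.sup d + 1) := fun k =>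
    ⟨d k, Nat.lt_succ_of_le (Finset.le_sup (Finset.mem_univ k))⟩
  let glue : (∀ i : Fin (Finset.univ.sup d + 1),
      Matrix (Fin (Fintype.card (BlockSet d i))) (Fin (Fintype.card (BlockSet d i))) F) → Matrix (Fin t) (Fin t) F :=
    fun A => Matrix.of fun l k => if h : d k = d l then A (ix l) (e (ix l) ⟨l, rfl⟩) (e (ix l) ⟨k, h⟩) else 0
  have hglue : ∀ A, glue A ∈ sizeRing F d := fun A => mem_sizeRing.2 fun l k h => dif_neg (Ne.symm h)
  have hsub : ∀ A (i : Fin (Finset.univ.sup d + 1)), (glue A).submatrix (fun x : Fin (Fintype.card (BlockSet d i)) => ((e i).symm x).1)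
      (fun x : Fin (Fintype.card (BlockSet d i)) => ((e i).symm x).1) = A i := by
    intro A i
    ext x y
    obtain ⟨⟨l, hl⟩, rfl⟩ := (e i).surjective x
    obtain ⟨⟨k, hk⟩, rfl⟩ := (e i).surjective y
    simp only [glue, Matrix.submatrix_apply, Matrix.of_apply, Equiv.symm_apply_apply]
    obtain rfl : i = ix l := Fin.ext hl.symm
    rw [dif_pos (show d k = d l from hk)]
  refine Nat.card_congr
    { toFun := fun M i => ⟨_, (hp M.1 M.2.1).1 M.2.2 i⟩
      invFun := fun A => ⟨glue fun i => (A i).1, hglue fun i => (A i).1, (hp _ (hglue fun i => (A i).1)).2 fun i => by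
        have := hsub (fun i => (A i).1) i
        simp only [e] at this
        rw [this]; exact (A i).2⟩
      left_inv := fun M => Subtype.ext ?_
      right_inv := fun A => funext fun i => Subtype.ext (hsub (fun i => (A i).1) i) }
  ext l k
  simp only [glue, Matrix.of_apply]
  by_cases h : d k = d l
  · rw [dif_pos h]
    simp [e]
  · rw [dif_neg h, mem_sizeRing.1 M.2.1 l k (Ne.symm h)]

theorem submatrix_mul_sizeRing {A B : Matrix (Fin t) (Fin t) F} (hA : A ∈ sizeRing F d)
    (i : Fin (Finset.univ.sup d + 1)) :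
    (A * B).submatrix (fun x : Fin (Fintype.card (BlockSet d i)) => ((Fintype.equivFin _).symm x).1)
        (fun x : Fin (Fintype.card (BlockSet d i)) => ((Fintype.equivFin _).symm x).1) =
      A.submatrix (fun x : Fin (Fintype.card (BlockSet d i)) => ((Fintype.equivFin _).symm x).1)
          (fun x : Fin (Fintype.card (BlockSet d i)) => ((Fintype.equivFin _).symm x).1) *
        B.submatrix (fun x : Fin (Fintype.card (BlockSet d i)) => ((Fintype.equivFin _).symm x).1)
          (fun x : Fin (Fintype.card (BlockSet d i)) => ((Fintype.equivFin _).symm x).1) := by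
  ext x y
  simp only [Matrix.submatrix_apply, Matrix.mul_apply]
  refine (Finset.sum_of_injOn (fun z : Fin (Fintype.card (BlockSet d i)) => ((Fintype.equivFin _).symm z).1)
    ((Subtype.val_injective.comp (Equiv.injective _)).injOn) (fun _ _ => Finset.mem_univ _) ?_ (fun _ _ => rfl)).symm
  intro m _ hm
  have : d ((Fintype.equivFin (BlockSet d i)).symm x).1 ≠ d m := fun e => hm
    ⟨Fintype.equivFin _ ⟨m, e.symm.trans ((Fintype.equivFin (BlockSet d i)).symm x).2⟩,
      Finset.mem_coe.2 (Finset.mem_univ _), by simp⟩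
  rw [mem_sizeRing.1 hA _ _ this, zero_mul]

theorem adj_mem_sizeRing {M : Matrix (Fin t) (Fin t) F} (hM : M ∈ sizeRing F d) : adj hF M ∈ sizeRing F d :=
  mem_sizeRing.2 fun l k h => by rw [adj_apply, mem_sizeRing.1 hM k l h.symm, map_zero]

theorem sizeRing_eq_iff {A B : Matrix (Fin t) (Fin t) F} (hA : A ∈ sizeRing F d) (hB : B ∈ sizeRing F d) :
    A = B ↔ ∀ i : Fin (Finset.univ.sup d + 1),
      A.submatrix (fun x : Fin (Fintype.card (BlockSet d i)) => ((Fintype.equivFin _).symm x).1)
          (fun x : Fin (Fintype.card (BlockSet d i)) => ((Fintype.equivFin _).symm x).1) =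
        B.submatrix (fun x : Fin (Fintype.card (BlockSet d i)) => ((Fintype.equivFin _).symm x).1)
          (fun x : Fin (Fintype.card (BlockSet d i)) => ((Fintype.equivFin _).symm x).1) := by
  refine ⟨fun h i => by rw [h], fun h => Matrix.ext fun l k => ?_⟩
  by_cases hlk : d k = d l
  · have := congrFun (congrFun (h ⟨d l, Nat.lt_succ_of_le (Finset.le_sup (Finset.mem_univ l))⟩)
      (Fintype.equivFin _ ⟨l, rfl⟩)) (Fintype.equivFin _ ⟨k, hlk⟩)
    simpa using this
  · rw [mem_sizeRing.1 hA l k (Ne.symm hlk), mem_sizeRing.1 hB l k (Ne.symm hlk)]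

set_option maxHeartbeats 800000 in
include hF in
theorem card_sizeRing_normOne (d : Fin t → ℕ) :
    Nat.card {M : Matrix (Fin t) (Fin t) F // M ∈ sizeRing F d ∧ adj hF M * M = 1} =
      ∏ i : Fin (Finset.univ.sup d + 1), Nat.card (Cfsg.GU (Fintype.card (BlockSet d i)) F q) := by
  haveI := hF.1
  rw [card_sizeRing_subtype d (fun {n} (A : Matrix (Fin n) (Fin n) F) => adj hF A * A = 1)]
  · refine Finset.prod_congr rfl fun i _ => Nat.card_congr
      { toFun := fun A => ⟨⟨A.1, adj hF A.1, mul_eq_one_comm.1 A.2, A.2⟩,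
          (ClassConj.mem_GU_iff_cstar hF _).2 A.2⟩
        invFun := fun g => ⟨((g : GL (Fin (Fintype.card (BlockSet d i))) F) :
          Matrix (Fin (Fintype.card (BlockSet d i))) (Fin (Fintype.card (BlockSet d i))) F),
          (ClassConj.mem_GU_iff_cstar hF _).1 g.2⟩
        left_inv := fun A => rfl
        right_inv := fun g => Subtype.ext (Units.ext rfl) }
  · intro M hM
    have hMs := adj_mem_sizeRing hF hM
    constructor
    · intro h i
      change adj hF M * M = 1 at h
      show adj hF _ * _ = 1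
      rw [show adj hF (M.submatrix _ _) = (adj hF M).submatrix _ _ from rfl, ← submatrix_mul_sizeRing hMs, h]
      exact Matrix.submatrix_one _ (Subtype.val_injective.comp (Equiv.injective _))
    · intro h
      refine (sizeRing_eq_iff (mul_mem hMs hM) (one_mem _)).2 fun i => ?_
      rw [submatrix_mul_sizeRing hMs]
      exact (h i).trans (Matrix.submatrix_one _ (Subtype.val_injective.comp (Equiv.injective _))).symm

theorem card_sizeRing_units [Finite F] (d : Fin t → ℕ) :
    Nat.card {M : Matrix (Fin t) (Fin t) F // M ∈ sizeRing F d ∧ IsUnit M} =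
      ∏ i : Fin (Finset.univ.sup d + 1), Nat.card (GL (Fin (Fintype.card (BlockSet d i))) F) := by
  rw [card_sizeRing_subtype d (fun {n} (A : Matrix (Fin n) (Fin n) F) => IsUnit A)]
  · refine Finset.prod_congr rfl fun i _ => Nat.card_congr
      { toFun := fun A => A.2.unit
        invFun := fun g => ⟨(g : Matrix _ _ F), g.isUnit⟩
        left_inv := fun A => rfl
        right_inv := fun g => Units.ext rfl }
  · intro M hM
    have hsub1 := fun i : Fin (Finset.univ.sup d + 1) => Matrix.submatrix_one (α := F)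
      (fun x : Fin (Fintype.card (BlockSet d i)) => ((Fintype.equivFin (BlockSet d i)).symm x).1)
      (Subtype.val_injective.comp (Equiv.injective _))
    constructor
    · rintro ⟨u, rfl⟩ i
      have hinv : ((u⁻¹ : _ˣ) : Matrix (Fin t) (Fin t) F) ∈ sizeRing F d := Subring.mem_centralizer_iff.2 fun a ha =>
        (show Commute a (u : Matrix (Fin t) (Fin t) F) from Subring.mem_centralizer_iff.1 hM a ha).units_inv_right
      let f : Fin (Fintype.card (BlockSet d i)) → Fin t := fun x => ((Fintype.equivFin (BlockSet d i)).symm x).1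
      refine ⟨⟨(u : Matrix (Fin t) (Fin t) F).submatrix f f,
        ((u⁻¹ : _ˣ) : Matrix (Fin t) (Fin t) F).submatrix f f, ?_, ?_⟩, rfl⟩
      · exact (submatrix_mul_sizeRing hM i).symm.trans (by rw [Units.mul_inv, hsub1])
      · exact (submatrix_mul_sizeRing hinv i).symm.trans (by rw [Units.inv_mul, hsub1])
    · intro h
      refine Matrix.mulVec_injective_iff_isUnit.1 ((injective_iff_map_eq_zero (Matrix.mulVecLin M)).2 ?_)
      intro v hv
      funext l
      let i : Fin (Finset.univ.sup d + 1) := ⟨d l, Nat.lt_succ_of_le (Finset.le_sup (Finset.mem_univ l))⟩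
      let f : Fin (Fintype.card (BlockSet d i)) → Fin t := fun x => ((Fintype.equivFin (BlockSet d i)).symm x).1
      have h0 : (M.submatrix f f).mulVec (v ∘ f) = 0 := by
        funext x
        show ∑ y, M (f x) (f y) * v (f y) = 0
        have hx : ∑ m, M (f x) m * v m = 0 := congrFun hv (f x)
        refine Eq.trans ?_ hx
        refine Finset.sum_of_injOn f ((Subtype.val_injective.comp (Equiv.injective _)).injOn)
          (fun _ _ => Finset.mem_univ _) ?_ (fun _ _ => rfl)
        intro m _ hm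
        have : d (f x) ≠ d m := fun e => hm
          ⟨Fintype.equivFin _ ⟨m, e.symm.trans ((Fintype.equivFin (BlockSet d i)).symm x).2⟩,
            Finset.mem_coe.2 (Finset.mem_univ _), by simp [f]⟩
        rw [mem_sizeRing.1 hM _ _ this, zero_mul]
      have h1 := congrFun (Matrix.mulVec_injective_iff_isUnit.2 (h i) (h0.trans (Matrix.mulVec_zero _).symm))
        (Fintype.equivFin _ ⟨l, rfl⟩)
      simpa [f] using h1

set_option maxHeartbeats 1600000 in
include hF in
/-- The centraliser in the unitary group of a unipotent element of given Jordan type. -/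
theorem card_centralizer_jordanType {n : ℕ} (hd : ∀ k, 1 ≤ d k) (e : JIdx d ≃ Fin n) (u : ↥(Cfsg.GU n F q))
    (hu : IsConj (Matrix.reindex e e (Cfsg.jordanTypeMatrix d F)) ((u : GL (Fin n) F) : Matrix (Fin n) (Fin n) F)) :
    Nat.card ↥(Subgroup.centralizer ({u} : Set ↥(Cfsg.GU n F q))) =
      q ^ (2 * (∑ i ∈ Finset.range (Finset.univ.sup d + 1), ∑ j ∈ Finset.range (Finset.univ.sup d + 1),
          if i < j then i * (Finset.univ.filter (fun k : Fin t => d k = i)).card * (Finset.univ.filter (fun k : Fin t => d k = j)).card else 0)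
        + ∑ i ∈ Finset.range (Finset.univ.sup d + 1), (i - 1) * (Finset.univ.filter (fun k : Fin t => d k = i)).card ^ 2)
      * ∏ i : Fin (Finset.univ.sup d + 1), Nat.card (Cfsg.GU (Fintype.card (BlockSet d i)) F q) := by
  classical
  haveI := hF.1
  letI : Fintype F := Fintype.ofFinite F
  set γ := 2 * (∑ i ∈ Finset.range (Finset.univ.sup d + 1), ∑ j ∈ Finset.range (Finset.univ.sup d + 1),
          if i < j then i * (Finset.univ.filter (fun k : Fin t => d k = i)).card * (Finset.univ.filter (fun k : Fin t => d k = j)).card else 0)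
        + ∑ i ∈ Finset.range (Finset.univ.sup d + 1), (i - 1) * (Finset.univ.filter (fun k : Fin t => d k = i)).card ^ 2
  choose G hG1 hG2 hG3 using fun i => exists_form_jordanBlock hF i
  let J := Cfsg.jordanTypeMatrix d F
  have hGinv : ∀ i, ∃ G' : Matrix (Fin i) (Fin i) F, G i * G' = 1 := fun i => ⟨_, (hG2 i).unit.mul_inv⟩
  choose G' hG' using hGinv
  let H : Matrix (JIdx d) (JIdx d) F := Matrix.blockDiagonal' fun k => G (d k)
  let H' : Matrix (JIdx d) (JIdx d) F := Matrix.blockDiagonal' fun k => G' (d k)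
  have hHH' : H * H' = 1 := by
    rw [← Matrix.blockDiagonal'_mul, ← Matrix.blockDiagonal'_one]
    exact congrArg _ (funext fun k => hG' (d k))
  have hH'H : H' * H = 1 := mul_eq_one_comm.1 hHH'
  have hHs : adj hF H = H := by
    rw [adj_blockDiagonal']
    exact congrArg _ (funext fun k => hG1 (d k))
  have hJH : adj hF J * H * J = H := by
    show adj hF (Matrix.blockDiagonal' _) * H * Matrix.blockDiagonal' _ = H
    rw [adj_blockDiagonal', ← Matrix.blockDiagonal'_mul, ← Matrix.blockDiagonal'_mul]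
    exact congrArg _ (funext fun k => hG3 (d k))
  -- scalars
  obtain ⟨c0, hc0⟩ : ∃ c : F, Forms.sqConj hF c ≠ c := by
    by_contra hc
    push Not at hc
    exact Forms.sqConj_ne_id hF (RingHom.ext hc)
  have hscal : ∀ {ι : Type} [Fintype ι] [DecidableEq ι] (x : F) (M : Matrix ι ι F),
      Commute (x • (1 : Matrix ι ι F)) M := fun x M => (Commute.one_left M).smul_left x
  have hθu : ∀ {ι : Type} [Fintype ι] [DecidableEq ι],
      IsUnit (c0 • (1 : Matrix ι ι F) - adj hF (c0 • (1 : Matrix ι ι F))) := fun {ι} _ _ => by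
    rw [adj_smul_one, ← sub_smul, ← Algebra.algebraMap_eq_smul_one]
    exact (Ne.isUnit (sub_ne_zero.2 (Ne.symm hc0))).map _
  -- the adjoint of the form
  let s : Matrix (JIdx d) (JIdx d) F → Matrix (JIdx d) (JIdx d) F := fun X => H' * adj hF X * H
  have hsadd : ∀ a b, s (a + b) = s a + s b := fun a b => by
    simp only [s, adj_add, mul_add, add_mul]
  have hsmul : ∀ a b, s (a * b) = s b * s a := fun a b => by
    simp only [s, adj_mul, mul_assoc]
    rw [← mul_assoc H H', hHH', one_mul]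
  have hH's : adj hF H' = H' := by
    have h1 : adj hF H' * H = 1 := by
      rw [← hHs, ← adj_mul, hHH', adj_one]
    calc adj hF H' = adj hF H' * (H * H') := by rw [hHH', mul_one]
      _ = H' := by rw [← mul_assoc, h1, one_mul]
  have hs2 : ∀ a, s (s a) = a := fun a => by
    simp only [s, adj_mul, adj_adj, hH's, hHs]
    rw [← mul_assoc, ← mul_assoc, hH'H, one_mul, mul_assoc, hH'H, mul_one]
  have hsscal : ∀ x : F, s (x • 1) = Forms.sqConj hF x • 1 := fun x => by
    simp only [s, adj_smul_one, mul_smul_comm, smul_mul_assoc, mul_one, hH'H]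
  let Cm := Subring.centralizer ({J} : Set (Matrix (JIdx d) (JIdx d) F))
  have hCm : ∀ X, X ∈ Cm ↔ X * jordanShift d = jordanShift d * X := fun X => by
    rw [Subring.mem_centralizer_iff]
    simp only [Set.mem_singleton_iff, forall_eq]
    show J * X = X * J ↔ _
    rw [show J = 1 + jordanShift d from ClassConj.jordanTypeMatrix_eq d, add_mul, mul_add, one_mul, mul_one,
      add_right_inj, eq_comm]
  have hsJ : s J * J = 1 := by
    show H' * adj hF J * H * J = 1
    rw [mul_assoc H', mul_assoc H', hJH, hH'H]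
  have hsC : ∀ X ∈ Cm, s X ∈ Cm := by
    intro X hX
    rw [Subring.mem_centralizer_iff] at hX ⊢
    simp only [Set.mem_singleton_iff, forall_eq] at hX ⊢
    have h1 := congrArg s hX
    rw [hsmul, hsmul] at h1
    -- `h1 : s X * s J = s J * s X`
    calc J * s X = J * (s X * (s J * J)) := by rw [hsJ, mul_one]
      _ = J * (s J * s X) * J := by rw [← h1]; simp only [mul_assoc]
      _ = s X * J := by rw [← mul_assoc J, mul_eq_one_comm.1 hsJ, one_mul]
  have hlift : ∀ M, liftBlocks M ∈ Cm := fun M => (hCm _).2 (liftBlocks_commute M)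
  have hslift : ∀ M, s (liftBlocks M) = liftBlocks (adj hF M) := by
    intro M
    have hc : adj hF (liftBlocks M : Matrix (JIdx d) (JIdx d) F) * H = H * liftBlocks (adj hF M) := by
      rw [adj_liftBlocks]
      let g : ℕ → ℕ → ℕ → F := fun i b a =>
        if h : b < i ∧ a < i then G i ⟨b, h.1⟩ ⟨a, h.2⟩ else 0
      have hH : ∀ (l k : Fin t) (b : Fin (d l)) (a : Fin (d k)),
          H ⟨l, b⟩ ⟨k, a⟩ = if l = k then g (d l) b a else 0 := by
        intro l k b a
        rcases eq_or_ne l k with rfl | hlk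
        · rw [if_pos rfl]
          show Matrix.blockDiagonal' _ _ _ = _
          rw [Matrix.blockDiagonal'_apply_eq]
          simp only [g, dif_pos (show (b : ℕ) < d l ∧ (a : ℕ) < d l from ⟨b.2, a.2⟩)]
        · rw [if_neg hlk]
          exact Matrix.blockDiagonal'_apply_ne _ _ _ hlk
      ext ⟨l, b⟩ ⟨k, a⟩
      rw [Matrix.mul_apply, Matrix.mul_apply]
      by_cases hlk : d l = d k
      · rw [Finset.sum_eq_single ⟨k, ⟨b, lt_of_lt_of_eq b.2 hlk⟩⟩,
          Finset.sum_eq_single ⟨l, ⟨a, lt_of_lt_of_eq a.2 hlk.symm⟩⟩]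
        · simp [liftBlocks, hH, hlk, mul_comm]
        · rintro ⟨m, c⟩ - hne
          rw [hH]
          by_cases hlm : l = m
          · subst hlm
            have : (c : ℕ) ≠ a := fun h => hne (congrArg (Sigma.mk l) (Fin.ext h))
            simp [liftBlocks, this]
          · rw [if_neg hlm, zero_mul]
        · exact fun h => absurd (Finset.mem_univ _) h
        · rintro ⟨m, c⟩ - hne
          rw [hH]
          by_cases hmk : m = k
          · subst hmk
            have : (b : ℕ) ≠ c := fun h => hne (congrArg (Sigma.mk m) (Fin.ext h.symm))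
            simp [liftBlocks, this]
          · rw [if_neg hmk, mul_zero]
        · exact fun h => absurd (Finset.mem_univ _) h
      · rw [Finset.sum_eq_zero, Finset.sum_eq_zero]
        · rintro ⟨m, c⟩ -
          rw [hH]
          by_cases hlm : l = m
          · subst hlm
            simp [liftBlocks, hlk]
          · rw [if_neg hlm, zero_mul]
        · rintro ⟨m, c⟩ -
          rw [hH]
          by_cases hmk : m = k
          · subst hmk
            simp [liftBlocks, hlk]
          · rw [if_neg hmk, mul_zero]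
    show H' * adj hF (liftBlocks M) * H = _
    rw [mul_assoc, hc, ← mul_assoc, hH'H, one_mul]
  -- the radical is stable
  have hrad : ∀ X ∈ Cm, topAll hd X = 0 → topAll hd (s X) = 0 := by
    intro X hX h0
    set M := topAll hd (s X)
    have hMm : M ∈ sizeRing F d := topAll_mem hd _
    -- `s X * liftBlocks Y` is nilpotent for every `Y`
    have hnil : ∀ Y ∈ sizeRing F d, IsNilpotent (M * Y) := by
      intro Y hY
      have h2 : IsNilpotent (s (liftBlocks Y) * X) := by
        refine ClassConj.isNilpotent_of_topPart_eq_zero hd ((hCm _).1 (mul_mem (hsC _ (hlift Y)) hX)) fun i => ?_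
        rw [ClassConj.topPart_mul hd ((hCm _).1 (hsC _ (hlift Y))) ((hCm _).1 hX)]
        have : topPart hd X i = 0 := by
          ext ⟨l, hl⟩ ⟨k, hk⟩
          have := congrFun (congrFun h0 l) k
          simp only [topAll, Matrix.of_apply, if_pos (hl.trans hk.symm)] at this
          exact this
        rw [this, mul_zero]
      obtain ⟨j, hj⟩ := h2
      have hpw : ∀ j Z, s (Z ^ j) = s Z ^ j := by
        intro j Z
        induction j with
        | zero =>
          rw [pow_zero, pow_zero]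
          have := hsscal 1
          rwa [one_smul, map_one, one_smul] at this
        | succ j ih => rw [pow_succ, hsmul, ih, pow_succ']
      have hj' : (s X * liftBlocks Y) ^ j = 0 := by
        have := congrArg s hj
        rw [hpw, hsmul, hs2] at this
        rw [this]
        have := hsscal 0
        rwa [zero_smul, map_zero, zero_smul] at this
      refine ⟨j, ?_⟩
      have htpow : ∀ j, topAll hd ((s X * liftBlocks Y) ^ j) = (M * Y) ^ j := by
        intro j
        induction j with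
        | zero => rw [pow_zero, pow_zero, topAll_one]
        | succ j ih =>
          rw [pow_succ, topAll_mul hd ((hCm _).1 (pow_mem (mul_mem (hsC _ hX) (hlift Y)) j))
            ((hCm _).1 (mul_mem (hsC _ hX) (hlift Y))), ih, topAll_mul hd ((hCm _).1 (hsC _ hX)) (liftBlocks_commute Y),
            topAll_liftBlocks hd hY, pow_succ]
      rw [← htpow, hj']
      ext l k
      simp [topAll]
    ext l k
    by_contra hne
    change M l k ≠ 0 at hne
    have hlk : d l = d k := by
      by_contra h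
      exact hne (mem_sizeRing.1 hMm l k h)
    have hY : Matrix.single k l (1 : F) ∈ sizeRing F d := mem_sizeRing.2 fun a b h => by
      refine Matrix.single_apply_of_ne _ _ _ _ _ ?_
      rintro ⟨rfl, rfl⟩
      exact h hlk.symm
    have h3 := (Matrix.isNilpotent_trace_of_isNilpotent (hnil _ hY)).eq_zero
    rw [Matrix.trace_mul_single] at h3
    simp at h3
    exact hne h3
  have htops : ∀ X ∈ Cm, topAll hd (s X) = adj hF (topAll hd X) := by
    intro X hX
    set M := topAll hd X
    have hM : M ∈ sizeRing F d := topAll_mem hd _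
    have h1 : topAll hd (X - liftBlocks M) = 0 := by
      ext l k
      have := congrFun (congrFun (topAll_liftBlocks hd hM) l) k
      simp only [topAll, Matrix.of_apply, Matrix.sub_apply, Matrix.zero_apply] at this ⊢
      by_cases h : d l = d k
      · rw [if_pos h] at this ⊢
        rw [this, sub_eq_zero]
        simp [M, topAll, h]
      · rw [if_neg h]
    have h2 := hrad _ (sub_mem hX (hlift M)) h1
    have e : s X = s (X - liftBlocks M) + s (liftBlocks M) := by rw [← hsadd, sub_add_cancel]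
    rw [e, show topAll hd (s (X - liftBlocks M) + s (liftBlocks M)) =
      topAll hd (s (X - liftBlocks M)) + topAll hd (s (liftBlocks M)) from ?_, h2, zero_add, hslift,
      topAll_liftBlocks hd (adj_mem_sizeRing hF hM)]
    ext l k
    simp only [topAll, Matrix.of_apply, Matrix.add_apply]
    by_cases h : d l = d k <;> simp [h]
  -- counting
  let R := {X : Matrix (JIdx d) (JIdx d) F // X ∈ Cm ∧ topAll hd X = 0}
  let R0 := {X : Matrix (JIdx d) (JIdx d) F // X ∈ Cm ∧ topAll hd X = 0 ∧ s X = X}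
  have htopadd : ∀ X Y : Matrix (JIdx d) (JIdx d) F, topAll hd (X + Y) = topAll hd X + topAll hd Y := fun X Y => by
    ext l k
    simp only [topAll, Matrix.of_apply, Matrix.add_apply]
    by_cases h : d l = d k <;> simp [h]
  have hsplit : ∀ X ∈ Cm, topAll hd (X - liftBlocks (topAll hd X)) = 0 := fun X hX => by
    have := htopadd (X - liftBlocks (topAll hd X)) (liftBlocks (topAll hd X))
    rw [sub_add_cancel, topAll_liftBlocks hd (topAll_mem hd _)] at this
    exact add_eq_right.1 this.symm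
  have hunitC : Nat.card {X : Matrix (JIdx d) (JIdx d) F // X ∈ Cm ∧ IsUnit X} =
      Nat.card R * Nat.card {M : Matrix (Fin t) (Fin t) F // M ∈ sizeRing F d ∧ IsUnit M} := by
    rw [← Nat.card_prod]
    refine Nat.card_congr
      { toFun := fun X => (⟨X.1 - liftBlocks (topAll hd X.1), sub_mem X.2.1 (hlift _), hsplit _ X.2.1⟩,
          ⟨topAll hd X.1, topAll_mem hd _, (isUnit_iff_topAll hd ((hCm _).1 X.2.1)).1 X.2.2⟩)
        invFun := fun p => ⟨p.1.1 + liftBlocks p.2.1, add_mem p.1.2.1 (hlift _), ?_⟩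
        left_inv := fun X => Subtype.ext (sub_add_cancel _ _)
        right_inv := ?_ }
    · rw [isUnit_iff_topAll hd ((hCm _).1 (add_mem p.1.2.1 (hlift _))), htopadd, p.1.2.2, zero_add,
        topAll_liftBlocks hd p.2.2.1]
      exact p.2.2.2
    · rintro ⟨⟨Y, hY, hY0⟩, ⟨M, hM, hMu⟩⟩
      have : topAll hd (Y + liftBlocks M) = M := by rw [htopadd, hY0, zero_add, topAll_liftBlocks hd hM]
      refine Prod.ext (Subtype.ext ?_) (Subtype.ext this)
      show Y + liftBlocks M - liftBlocks (topAll hd (Y + liftBlocks M)) = Y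
      rw [this, add_sub_cancel_right]
  have hherm : Nat.card {X : Matrix (JIdx d) (JIdx d) F // X ∈ Cm ∧ IsUnit X ∧ s X = X} =
      Nat.card R0 * Nat.card {M : Matrix (Fin t) (Fin t) F // M ∈ sizeRing F d ∧ IsUnit M ∧ adj hF M = M} := by
    rw [← Nat.card_prod]
    refine Nat.card_congr
      { toFun := fun X => (⟨X.1 - liftBlocks (topAll hd X.1), sub_mem X.2.1 (hlift _), hsplit _ X.2.1, ?_⟩,
          ⟨topAll hd X.1, topAll_mem hd _, (isUnit_iff_topAll hd ((hCm _).1 X.2.1)).1 X.2.2.1, ?_⟩)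
        invFun := fun p => ⟨p.1.1 + liftBlocks p.2.1, add_mem p.1.2.1 (hlift _), ?_, ?_⟩
        left_inv := fun X => Subtype.ext (sub_add_cancel _ _)
        right_inv := ?_ }
    · have h4 : adj hF (topAll hd X.1) = topAll hd X.1 := by rw [← htops _ X.2.1, X.2.2.2]
      have h5 := hsadd (X.1 - liftBlocks (topAll hd X.1)) (liftBlocks (topAll hd X.1))
      rw [sub_add_cancel, X.2.2.2, hslift, h4] at h5
      exact eq_sub_of_add_eq h5.symm
    · rw [← htops _ X.2.1, X.2.2.2]
    · rw [isUnit_iff_topAll hd ((hCm _).1 (add_mem p.1.2.1 (hlift _))), htopadd, p.1.2.2.1, zero_add,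
        topAll_liftBlocks hd p.2.2.1]
      exact p.2.2.2.1
    · rw [hsadd, p.1.2.2.2, hslift, p.2.2.2.2]
    · rintro ⟨⟨Y, hY, hY0, hYs⟩, ⟨M, hM, hMu, hMs⟩⟩
      have : topAll hd (Y + liftBlocks M) = M := by rw [htopadd, hY0, zero_add, topAll_liftBlocks hd hM]
      refine Prod.ext (Subtype.ext ?_) (Subtype.ext this)
      show Y + liftBlocks M - liftBlocks (topAll hd (Y + liftBlocks M)) = Y
      rw [this, add_sub_cancel_right]
  have hssmul : ∀ (x : F) X, s (x • X) = Forms.sqConj hF x • s X := fun x X => by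
    rw [← smul_one_mul x X, hsmul, hsscal, mul_smul_comm, mul_one]
  have hs0 : s 0 = 0 := by simpa using hssmul 0 0
  have htopsmul : ∀ (x : F) (X : Matrix (JIdx d) (JIdx d) F), topAll hd (x • X) = x • topAll hd X := fun x X => by
    ext l k
    simp only [topAll, Matrix.of_apply, Matrix.smul_apply]
    by_cases h : d l = d k <;> simp [h]
  have hCsmul : ∀ (x : F) X, X ∈ Cm → x • X ∈ Cm := fun x X hX => by
    rw [← smul_one_mul x X]
    exact mul_mem (Subring.mem_centralizer_iff.2 fun a _ => (hscal x a).symm) hX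
  have hR : Nat.card R = Nat.card R0 * Nat.card R0 := by
    rw [← Nat.card_prod]
    set δ := c0 - Forms.sqConj hF c0
    have hδ : δ ≠ 0 := sub_ne_zero.2 (Ne.symm hc0)
    symm
    refine Nat.card_congr (Equiv.ofBijective (fun p : R0 × R0 => (⟨p.1.1 + c0 • p.2.1,
      add_mem p.1.2.1 (hCsmul _ _ p.2.2.1), by rw [htopadd, htopsmul, p.1.2.2.1, p.2.2.2.1, smul_zero, add_zero]⟩ : R)) ⟨?_, ?_⟩)
    · rintro ⟨⟨a, ha⟩, ⟨b, hb⟩⟩ ⟨⟨a', ha'⟩, ⟨b', hb'⟩⟩ h
      have h1 : a + c0 • b = a' + c0 • b' := congrArg Subtype.val h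
      have h2 := congrArg s h1
      rw [hsadd, hsadd, hssmul, hssmul, ha.2.2, hb.2.2, ha'.2.2, hb'.2.2] at h2
      have h3 : δ • (b - b') = 0 := by
        rw [smul_sub, sub_smul, sub_smul]
        have := congrArg₂ (· - ·) h1 h2
        simp only [add_sub_add_left_eq_sub] at this
        rw [this, sub_self]
      have hbb : b = b' := sub_eq_zero.1 ((smul_eq_zero.1 h3).resolve_left hδ)
      subst hbb
      exact Prod.ext (Subtype.ext (add_right_cancel h1)) rfl
    · rintro ⟨X, hX, hX0⟩
      have hsX0 : topAll hd (s X) = 0 := hrad X hX hX0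
      have hδs : Forms.sqConj hF δ⁻¹ = -δ⁻¹ := by
        rw [map_inv₀, map_sub, Forms.sqConj_sqConj, ← neg_sub, inv_neg]
      let b := δ⁻¹ • (X - s X)
      have hbs : s b = b := by
        have e : s (X - s X) = s X - X := by
          have := hsadd (X - s X) (s X)
          rw [sub_add_cancel, hs2] at this
          exact eq_sub_of_add_eq this.symm
        rw [hssmul, hδs, e, neg_smul, ← smul_neg, neg_sub]
      have hb0 : topAll hd b = 0 := by
        have := htopadd (X - s X) (s X)
        rw [sub_add_cancel, hX0, hsX0, add_zero] at this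
        rw [htopsmul, ← this, smul_zero]
      have hbC : b ∈ Cm := hCsmul _ _ (sub_mem hX (hsC _ hX))
      refine ⟨(⟨X - c0 • b, sub_mem hX (hCsmul _ _ hbC), ?_, ?_⟩, ⟨b, hbC, hb0, hbs⟩), Subtype.ext (sub_add_cancel _ _)⟩
      · have := htopadd (X - c0 • b) (c0 • b)
        rw [sub_add_cancel, hX0, htopsmul, hb0, smul_zero, add_zero] at this
        exact this.symm
      · have h5 := hsadd (X - c0 • b) (c0 • b)
        rw [sub_add_cancel, hssmul, hbs] at h5
        have h6 : δ • b = X - s X := by rw [smul_smul, mul_inv_cancel₀ hδ, one_smul]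
        rw [eq_sub_of_add_eq h5.symm]
        rw [sub_smul] at h6
        calc s X - Forms.sqConj hF c0 • b = X - c0 • b + (c0 • b - Forms.sqConj hF c0 • b - (X - s X)) := by abel
          _ = X - c0 • b := by rw [h6, sub_self, add_zero]
  -- compare with the general linear count
  have hGL : Nat.card R * Nat.card {M : Matrix (Fin t) (Fin t) F // M ∈ sizeRing F d ∧ IsUnit M} =
      (q ^ γ) ^ 2 * Nat.card {M : Matrix (Fin t) (Fin t) F // M ∈ sizeRing F d ∧ IsUnit M} := by
    rw [← hunitC]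
    have h1 := ClassConj.card_jordanType_centralizer (F := F) (d := d) hd
    have h2 : Nat.card {g : GL (JIdx d) F // (g : Matrix (JIdx d) (JIdx d) F) * J = J * (g : Matrix (JIdx d) (JIdx d) F)} =
        Nat.card {X : Matrix (JIdx d) (JIdx d) F // X ∈ Cm ∧ IsUnit X} :=
      Nat.card_congr
        { toFun := fun g => ⟨(g.1 : Matrix (JIdx d) (JIdx d) F),
            Subring.mem_centralizer_iff.2 (by simpa using g.2.symm), g.1.isUnit⟩
          invFun := fun X => ⟨X.2.2.unit, (Subring.mem_centralizer_iff.1 X.2.1 J rfl).symm⟩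
          left_inv := fun g => Subtype.ext (Units.ext rfl)
          right_inv := fun X => rfl }
    rw [← h2, h1, card_sizeRing_units, ← Nat.card_eq_fintype_card, hF.2, ← pow_mul, ← pow_mul, mul_comm γ 2]
    congr 1
    rw [← Fin.prod_univ_eq_prod_range]
    refine Finset.prod_congr rfl fun i _ => ?_
    rw [Matrix.card_GL_field, Fintype.card_subtype, ← Nat.card_eq_fintype_card, hF.2]
  have hUB : 0 < Nat.card {M : Matrix (Fin t) (Fin t) F // M ∈ sizeRing F d ∧ IsUnit M} :=
    Nat.card_pos_iff.2 ⟨⟨⟨1, one_mem _, isUnit_one⟩⟩, inferInstance⟩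
  have hR0 : Nat.card R0 = q ^ γ := by
    have := Nat.eq_of_mul_eq_mul_right hUB hGL
    rw [hR, ← sq] at this
    exact Nat.pow_left_injective two_ne_zero this
  have hθJ : IsUnit (c0 • (1 : Matrix (JIdx d) (JIdx d) F) - s (c0 • 1)) := by
    have := hθu (ι := JIdx d)
    rwa [adj_smul_one, ← hsscal] at this
  have k1 := card_normOne_mul_fixed s hsadd hsmul hs2 (c0 • 1) (hscal _) (by rw [hsscal]; exact hscal _) hθJ
    ({J} : Set (Matrix (JIdx d) (JIdx d) F)) hsC
  have k2 := card_normOne_mul_fixed (adj hF (ι := Fin t) (κ := Fin t)) (adj_add hF) (adj_mul hF) (adj_adj hF)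
    (c0 • 1) (hscal _) (by rw [adj_smul_one]; exact hscal _) hθu (Set.range (sizeProj (F := F) d))
    (fun M hM => adj_mem_sizeRing hF hM)
  rw [hunitC, hherm, hR, hR0, ← k2, card_sizeRing_normOne hF d] at k1
  have hW : Nat.card {X : Matrix (JIdx d) (JIdx d) F // X ∈ Cm ∧ s X * X = 1} =
      q ^ γ * ∏ i : Fin (Finset.univ.sup d + 1), Nat.card (Cfsg.GU (Fintype.card (BlockSet d i)) F q) := by
    have hpos : 0 < q ^ γ * Nat.card {M : Matrix (Fin t) (Fin t) F // M ∈ sizeRing F d ∧ IsUnit M ∧ adj hF M = M} :=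
      mul_pos (pow_pos (zero_lt_one.trans hF.one_lt) γ)
        (Nat.card_pos_iff.2 ⟨⟨⟨1, one_mem _, isUnit_one, adj_one hF⟩⟩, inferInstance⟩)
    refine Nat.eq_of_mul_eq_mul_right hpos (k1.trans ?_)
    ring
  -- transport to the given element
  obtain ⟨c, ⟨c, rfl⟩, hcc, -⟩ := ClassConj.exists_star_mul_eq (adj hF (ι := JIdx d) (κ := JIdx d)) (adj_add hF)
    (adj_mul hF) (adj_adj hF) (h := H) (θ := c0 • 1) hHs ⟨⟨H, H', hHH', hH'H⟩, rfl⟩ (hscal _ _) (hscal _ _) hθu
  let φ : Matrix (JIdx d) (JIdx d) F ≃+* Matrix (Fin n) (Fin n) F := (Matrix.reindexAlgEquiv F F e).toRingEquiv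
  have hφ : ∀ X, φ X = Matrix.reindex e e X := fun X => rfl
  have hφadj : ∀ X, φ (adj hF X) = ClassConj.cstar hF (φ X) := fun X => rfl
  obtain ⟨v, hv⟩ := hu.symm
  set um := ((u : GL (Fin n) F) : Matrix (Fin n) (Fin n) F) with hum
  have hv' : (v : Matrix (Fin n) (Fin n) F) * um = φ J * v := hv
  let w : GL (Fin n) F := Units.map φ.toMonoidHom c * v
  have hwv : (w : Matrix (Fin n) (Fin n) F) = φ c.1 * v := rfl
  let B : Matrix (Fin n) (Fin n) F := φ (c.1 * J * (c⁻¹ : _ˣ).1)
  have hBU : ClassConj.cstar hF B * B = 1 := by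
    rw [← hφadj, ← map_mul, ← map_one φ]
    congr 1
    have hci : adj hF (c⁻¹ : _ˣ).1 * adj hF c.1 = 1 := by rw [← adj_mul, Units.mul_inv, adj_one]
    rw [adj_mul, adj_mul]
    calc adj hF (c⁻¹ : _ˣ).1 * (adj hF J * adj hF c.1) * (c.1 * J * (c⁻¹ : _ˣ).1)
        = adj hF (c⁻¹ : _ˣ).1 * (adj hF J * (adj hF c.1 * c.1) * J) * (c⁻¹ : _ˣ).1 := by simp only [mul_assoc]
      _ = adj hF (c⁻¹ : _ˣ).1 * (adj hF c.1 * c.1) * (c⁻¹ : _ˣ).1 := by rw [hcc, hJH]
      _ = 1 := by rw [← mul_assoc, hci, one_mul, Units.mul_inv]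
  let Bu : ↥(Cfsg.GU n F q) := ⟨⟨B, ClassConj.cstar hF B, mul_eq_one_comm.1 hBU, hBU⟩,
    (ClassConj.mem_GU_iff_cstar hF _).2 hBU⟩
  obtain ⟨z, hz⟩ := isConj_iff.1 (ClassConj.GU_isConj_of_isConj hF u Bu (isConj_iff.2 ⟨w,
    mul_inv_eq_iff_eq_mul.2 (Units.ext (by
      show (w : Matrix (Fin n) (Fin n) F) * um = B * w
      rw [hwv, mul_assoc, hv', ← mul_assoc, ← mul_assoc B]
      simp only [B, ← map_mul]
      rw [mul_assoc _ (c⁻¹ : _ˣ).1, Units.inv_mul, mul_one]))⟩))
  have e1 : Nat.card ↥(Subgroup.centralizer ({u} : Set ↥(Cfsg.GU n F q))) =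
      Nat.card ↥(Subgroup.centralizer ({Bu} : Set ↥(Cfsg.GU n F q))) := by
    refine Nat.card_congr ((MulAut.conj z).toEquiv.subtypeEquiv fun g => ?_)
    simp only [Subgroup.mem_centralizer_singleton_iff]
    show g * u = u * g ↔ z * g * z⁻¹ * Bu = Bu * (z * g * z⁻¹)
    rw [← hz]
    constructor
    · intro h
      calc z * g * z⁻¹ * (z * u * z⁻¹) = z * (g * u) * z⁻¹ := by group
        _ = z * u * z⁻¹ * (z * g * z⁻¹) := by rw [h]; group
    · intro h
      calc g * u = z⁻¹ * (z * g * z⁻¹ * (z * u * z⁻¹)) * z := by group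
        _ = u * g := by rw [h]; group
  rw [e1, ← hW]
  refine Nat.card_congr
    { toFun := fun g => ⟨(c⁻¹ : _ˣ).1 * φ.symm ((g.1 : GL (Fin n) F) : Matrix (Fin n) (Fin n) F) * c.1, ?_, ?_⟩
      invFun := fun X => ⟨⟨⟨φ (c.1 * X.1 * (c⁻¹ : _ˣ).1), φ (c.1 * s X.1 * (c⁻¹ : _ˣ).1), ?_, ?_⟩, ?_⟩, ?_⟩
      left_inv := fun g => Subtype.ext (Subtype.ext (Units.ext (by
        show φ (c.1 * ((c⁻¹ : _ˣ).1 * _ * c.1) * (c⁻¹ : _ˣ).1) = _
        simp only [mul_assoc, Units.mul_inv_cancel_left, Units.mul_inv, mul_one, RingEquiv.apply_symm_apply])))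
      right_inv := fun X => Subtype.ext (by
        show (c⁻¹ : _ˣ).1 * φ.symm (φ (c.1 * X.1 * (c⁻¹ : _ˣ).1)) * c.1 = X.1
        simp only [RingEquiv.symm_apply_apply, mul_assoc, Units.inv_mul_cancel_left, Units.inv_mul, mul_one]) }
  · rw [Subring.mem_centralizer_iff]
    simp only [Set.mem_singleton_iff, forall_eq]
    have h := congrArg (fun x : ↥(Cfsg.GU n F q) => φ.symm ((x : GL (Fin n) F) : Matrix (Fin n) (Fin n) F))
      (Subgroup.mem_centralizer_singleton_iff.1 g.2)
    change φ.symm ((g.1 : GL (Fin n) F).val * B) = φ.symm (B * (g.1 : GL (Fin n) F).val) at h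
    rw [map_mul, map_mul, RingEquiv.symm_apply_apply] at h
    set G1 := φ.symm (g.1 : GL (Fin n) F).val
    calc J * ((c⁻¹ : _ˣ).1 * G1 * c.1) = (c⁻¹ : _ˣ).1 * (c.1 * J * (c⁻¹ : _ˣ).1 * G1) * c.1 := by
          simp only [mul_assoc, Units.inv_mul_cancel_left]
      _ = (c⁻¹ : _ˣ).1 * (G1 * (c.1 * J * (c⁻¹ : _ˣ).1)) * c.1 := by rw [h]
      _ = (c⁻¹ : _ˣ).1 * G1 * c.1 * J := by simp only [mul_assoc, Units.inv_mul, mul_one]
  · have hg : adj hF (φ.symm (g.1 : GL (Fin n) F).val) * φ.symm (g.1 : GL (Fin n) F).val = 1 := by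
      apply φ.injective
      rw [map_mul, hφadj, RingEquiv.apply_symm_apply, map_one]
      exact (ClassConj.mem_GU_iff_cstar hF _).1 g.1.2
    set G1 := φ.symm (g.1 : GL (Fin n) F).val
    show H' * adj hF ((c⁻¹ : _ˣ).1 * G1 * c.1) * H * ((c⁻¹ : _ˣ).1 * G1 * c.1) = 1
    have hci : adj hF (c⁻¹ : _ˣ).1 * adj hF c.1 = 1 := by rw [← adj_mul, Units.mul_inv, adj_one]
    calc H' * adj hF ((c⁻¹ : _ˣ).1 * G1 * c.1) * H * ((c⁻¹ : _ˣ).1 * G1 * c.1)
        = H' * adj hF c.1 * adj hF G1 * (adj hF (c⁻¹ : _ˣ).1 * adj hF c.1) * (c.1 * (c⁻¹ : _ˣ).1) * G1 * c.1 := by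
          rw [adj_mul, adj_mul, ← hcc]; simp only [mul_assoc]
      _ = 1 := by rw [hci, Units.mul_inv, mul_one, mul_one, mul_assoc _ (adj hF G1), hg, mul_one, mul_assoc, hcc, hH'H]
  · rw [← map_mul, ← map_one φ]
    congr 1
    simp only [mul_assoc, Units.inv_mul_cancel_left]
    rw [← mul_assoc X.1, mul_eq_one_comm.1 X.2.2, one_mul, Units.mul_inv]
  · rw [← map_mul, ← map_one φ]
    congr 1
    simp only [mul_assoc, Units.inv_mul_cancel_left]
    rw [← mul_assoc (s X.1), X.2.2, one_mul, Units.mul_inv]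
  · rw [ClassConj.mem_GU_iff_cstar hF]
    show ClassConj.cstar hF (φ (c.1 * X.1 * (c⁻¹ : _ˣ).1)) * φ (c.1 * X.1 * (c⁻¹ : _ˣ).1) = 1
    rw [← hφadj, ← map_mul, ← map_one φ]
    congr 1
    have hci : adj hF (c⁻¹ : _ˣ).1 * adj hF c.1 = 1 := by rw [← adj_mul, Units.mul_inv, adj_one]
    have hX : adj hF X.1 * H * X.1 = H := by
      calc adj hF X.1 * H * X.1 = (H * H') * adj hF X.1 * H * X.1 := by rw [hHH', one_mul]
        _ = H * (s X.1 * X.1) := by simp only [s, mul_assoc]
        _ = H := by rw [X.2.2, mul_one]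
    calc adj hF (c.1 * X.1 * (c⁻¹ : _ˣ).1) * (c.1 * X.1 * (c⁻¹ : _ˣ).1)
        = adj hF (c⁻¹ : _ˣ).1 * (adj hF X.1 * (adj hF c.1 * c.1) * X.1) * (c⁻¹ : _ˣ).1 := by
          rw [adj_mul, adj_mul]; simp only [mul_assoc]
      _ = 1 := by rw [hcc, hX, ← hcc, ← mul_assoc, hci, one_mul, Units.mul_inv]
  · rw [Subgroup.mem_centralizer_singleton_iff]
    refine Subtype.ext (Units.ext ?_)
    show φ (c.1 * X.1 * (c⁻¹ : _ˣ).1) * B = B * φ (c.1 * X.1 * (c⁻¹ : _ˣ).1)
    simp only [B, ← map_mul]
    congr 1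
    have hXJ : J * X.1 = X.1 * J := Subring.mem_centralizer_iff.1 X.2.1 J rfl
    calc c.1 * X.1 * (c⁻¹ : _ˣ).1 * (c.1 * J * (c⁻¹ : _ˣ).1) = c.1 * (X.1 * J) * (c⁻¹ : _ˣ).1 := by
          simp only [mul_assoc, Units.inv_mul_cancel_left]
      _ = c.1 * J * (c⁻¹ : _ˣ).1 * (c.1 * X.1 * (c⁻¹ : _ˣ).1) := by
          rw [← hXJ]; simp only [mul_assoc, Units.inv_mul_cancel_left]

end Cfsg.Agent.UClass
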